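import Mathlib
import Cfsg.Agent.H59.PushKill2

/-!
# S2953 (team project JY), KILL2: the `P'`-side interface (abstract)

`Cfsg.Agent.H97.Jy.pfacts`: `K, T, O ≤ G`, `T` a 2-group normalizing `K`, `O ≤ K ⊓ T` of index 3
in `K` and normalized by `K` and `T`, `K` generated by its elements of odd order.  Then the core
`D` of `T` in `K ⊔ T` (from helper59's `pstruct`) and an element `k ∈ K` of order 3 satisfy:
`O ≤ D ≤ T`, `K, T ≤ N(D)`, `|T : D| ≤ 2` (elementwise), `T ∖ D` inverts `K / O`, `K / O` has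
order 3 (elementwise), `K = O⟨k⟩`, and the dichotomy for subgroups normalized by `K ⊔ T`.
-/

set_option autoImplicit false

namespace Cfsg.Agent.H97.Jy

open Cfsg.Agent.H59.PushKill

universe u

variable {G : Type u} [Group G]

/-- An element of odd order in a 2-group is trivial. -/
theorem eq_one_of_odd_of_two {H : Subgroup G} (hH : IsPGroup 2 ↥H) {x : G} (hx : x ∈ H)
    (ho : Odd (orderOf x)) : x = 1 := by
  obtain ⟨n, hn⟩ := (IsPGroup.iff_orderOf.mp hH) ⟨x, hx⟩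
  have hord : orderOf x = 2 ^ n := by rw [← hn]; exact (Subgroup.orderOf_mk _ _).symm
  rw [hord] at ho
  have hn0 : n = 0 := by
    by_contra hne
    exact (Nat.not_even_iff_odd.mpr ho) ((Nat.even_pow).mpr ⟨even_two, hne⟩)
  rw [hn0, pow_zero] at hord
  exact orderOf_eq_one_iff.mp hord

/-- Normalizer membership from closure under conjugation by `y` and `y⁻¹`. -/
theorem mem_normalizer_of_conj (X : Subgroup G) (y : G) (h1 : ∀ t ∈ X, y * t * y⁻¹ ∈ X)
    (h2 : ∀ t ∈ X, y⁻¹ * t * y ∈ X) : y ∈ Subgroup.normalizer (X : Set G) := by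
  rw [Subgroup.mem_normalizer_iff]
  intro t
  constructor
  · exact h1 t
  · intro h
    have := h2 _ h
    simpa [mul_assoc] using this

/-- **JY-PFACTS**: the structure of `P = K ⊔ T` in elementwise form. -/
theorem pfacts [Finite G] (K T O : Subgroup G) (hT : IsPGroup 2 ↥T)
    (hTK : T ≤ Subgroup.normalizer (K : Set G)) (hOK : O ≤ K) (hOT : O ≤ T)
    (hO3 : O.relIndex K = 3) (hOnK : K ≤ Subgroup.normalizer (O : Set G))
    (hOnT : T ≤ Subgroup.normalizer (O : Set G))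
    (hgen : Subgroup.closure {g : G | g ∈ K ∧ Odd (orderOf g)} = K) :
    ∃ (D : Subgroup G) (k : G), D ≤ T ∧ O ≤ D ∧ K ≤ Subgroup.normalizer (D : Set G) ∧
      T ≤ Subgroup.normalizer (D : Set G) ∧
      (∀ a ∈ T, ∀ b ∈ T, a ∉ D → b ∉ D → a * b ∈ D) ∧
      (∀ x ∈ T, x ∉ D → ∀ g ∈ K, x * g * x⁻¹ * g ∈ O) ∧
      (∀ g ∈ K, g * g ∈ O → g ∈ O) ∧ (∀ g ∈ K, g ^ 3 ∈ O) ∧
      k ∈ K ∧ k ∉ O ∧ k ^ 3 = 1 ∧ (∀ g ∈ K, ∃ o ∈ O, ∃ i : ℕ, g = o * k ^ i) ∧
      (∀ N : Subgroup G, N ≤ K ⊔ T → K ⊔ T ≤ Subgroup.normalizer (N : Set G) →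
        N ≤ D ∨ K ≤ N) := by
  obtain ⟨D, hDT, hPD, hidx, hdich⟩ := pstruct K T O hT hTK hOK hOT hO3 hgen
  have hdich' : ∀ N : Subgroup G, N ≤ K ⊔ T → K ⊔ T ≤ Subgroup.normalizer (N : Set G) →
      N ≤ D ∨ K ≤ N :=
    fun N hN hn => hdich N hN (fun x hx => cj_eq_of_mem_normalizer (hn hx))
  have hOKn : (O.subgroupOf K).Normal := Subgroup.normal_subgroupOf_of_le_normalizer hOnK
  have hidx3 : (O.subgroupOf K).index = 3 := hO3
  -- cubes
  have hcube : ∀ g ∈ K, g ^ 3 ∈ O := by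
    intro g hg
    have h := Subgroup.pow_index_mem (O.subgroupOf K) (⟨g, hg⟩ : K)
    rw [hidx3] at h
    have h' := Subgroup.mem_subgroupOf.mp h
    simpa using h'
  have hsq : ∀ g ∈ K, g * g ∈ O → g ∈ O := by
    intro g hg h2
    have h3 := hcube g hg
    have e : g = g ^ 3 * (g * g)⁻¹ := by group
    rw [e]; exact O.mul_mem h3 (O.inv_mem h2)
  have hO2 : IsPGroup 2 ↥O := hT.to_le hOT
  -- the element `k`
  obtain ⟨k, hkK, hko, hkO⟩ : ∃ k, k ∈ K ∧ Odd (orderOf k) ∧ k ∉ O := by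
    by_contra hcon
    push Not at hcon
    have hKO : K ≤ O := by
      conv_lhs => rw [← hgen]
      rw [Subgroup.closure_le]
      rintro g ⟨hgK, hgo⟩
      exact hcon g hgK hgo
    have h1 : O.relIndex K = 1 := Subgroup.relIndex_eq_one.mpr hKO
    omega
  have hk3 : k ^ 3 = 1 :=
    eq_one_of_odd_of_two hO2 (hcube k hkK) (hko.of_dvd_nat (orderOf_pow_dvd 3))
  have hkT : k ∉ T := fun h => hkO (by rw [eq_one_of_odd_of_two hT h hko]; exact O.one_mem)
  -- conjugation facts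
  have cO : ∀ y, y ∈ K ∨ y ∈ T → ∀ o ∈ O, y * o * y⁻¹ ∈ O := by
    intro y hy o ho
    rcases hy with hy | hy
    · exact (Subgroup.mem_normalizer_iff.mp (hOnK hy) o).mp ho
    · exact (Subgroup.mem_normalizer_iff.mp (hOnT hy) o).mp ho
  have cK : ∀ y ∈ T, ∀ g ∈ K, y * g * y⁻¹ ∈ K :=
    fun y hy g hg => (Subgroup.mem_normalizer_iff.mp (hTK hy) g).mp hg
  -- `K = O⟨k⟩`
  have hKO : ∀ g ∈ K, ∃ o ∈ O, ∃ i : ℕ, g = o * k ^ i := by
    intro g hg
    have hOKn' := hOKn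
    have hcard : Nat.card (↥K ⧸ O.subgroupOf K) = 3 := hidx3
    have hfact : Fact (Nat.Prime 3) := ⟨Nat.prime_three⟩
    have hk1 : (QuotientGroup.mk (⟨k, hkK⟩ : ↥K) : ↥K ⧸ O.subgroupOf K) ≠ 1 := by
      intro h
      exact hkO (Subgroup.mem_subgroupOf.mp ((QuotientGroup.eq_one_iff _).mp h))
    have htop := zpowers_eq_top_of_prime_card hcard hk1
    have hmem : (QuotientGroup.mk (⟨g, hg⟩ : ↥K) : ↥K ⧸ O.subgroupOf K) ∈
        Subgroup.zpowers (QuotientGroup.mk (⟨k, hkK⟩ : ↥K) : ↥K ⧸ O.subgroupOf K) := by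
      rw [htop]; trivial
    rw [← mem_powers_iff_mem_zpowers] at hmem
    obtain ⟨i, hi⟩ := (Submonoid.mem_powers_iff _ _).mp hmem
    have hi' : (QuotientGroup.mk ((⟨k, hkK⟩ : ↥K) ^ i) : ↥K ⧸ O.subgroupOf K) =
        QuotientGroup.mk (⟨g, hg⟩ : ↥K) := by
      rw [← hi]; rfl
    have h2 := QuotientGroup.eq.mp hi'
    have h3 : (k ^ i)⁻¹ * g ∈ O := by
      have := Subgroup.mem_subgroupOf.mp h2
      simpa using this
    refine ⟨k ^ i * ((k ^ i)⁻¹ * g) * (k ^ i)⁻¹, cO _ (Or.inl (K.pow_mem hkK i)) _ h3, i, ?_⟩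
    group
  have hOD : O ≤ D :=
    (hdich' O (hOK.trans le_sup_left) (sup_le hOnK hOnT)).resolve_right (fun h => hkO (h hkK))
  have hD2 : ∀ a ∈ T, ∀ b ∈ T, a ∉ D → b ∉ D → a * b ∈ D := by
    intro a ha b hb haD hbD
    have hne0 : D.relIndex T ≠ 0 := Subgroup.index_ne_zero_of_finite
    have hne1 : D.relIndex T ≠ 1 := fun h => haD ((Subgroup.relIndex_eq_one.mp h) ha)
    have h2 : (D.subgroupOf T).index = 2 := by
      have : D.relIndex T = 2 := by omega
      exact this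
    have := (Subgroup.mul_mem_iff_of_index_two h2 (a := (⟨a, ha⟩ : ↥T))
      (b := (⟨b, hb⟩ : ↥T))).mpr
      ⟨fun h => absurd (Subgroup.mem_subgroupOf.mp h) haD,
       fun h => absurd (Subgroup.mem_subgroupOf.mp h) hbD⟩
    exact Subgroup.mem_subgroupOf.mp this
  -- the centralizer of `K / O` in `T`
  let C : Subgroup G :=
    { carrier := {t | t ∈ T ∧ ∀ g ∈ K, t * g * t⁻¹ * g⁻¹ ∈ O}
      one_mem' := ⟨T.one_mem, fun g _ => by simp⟩
      mul_mem' := by
        rintro s t ⟨hs, hs'⟩ ⟨ht, ht'⟩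
        refine ⟨T.mul_mem hs ht, fun g hg => ?_⟩
        have h1 := ht' g hg
        have h2 := hs' g hg
        have h3 := cO s (Or.inr hs) _ h1
        have e : s * t * g * (s * t)⁻¹ * g⁻¹ =
            (s * (t * g * t⁻¹ * g⁻¹) * s⁻¹) * (s * g * s⁻¹ * g⁻¹) := by group
        rw [e]; exact O.mul_mem h3 h2
      inv_mem' := by
        rintro t ⟨ht, ht'⟩
        refine ⟨T.inv_mem ht, fun g hg => ?_⟩
        have hg' : t⁻¹ * g * t ∈ K := by simpa using cK t⁻¹ (T.inv_mem ht) g hg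
        have h1 := ht' _ hg'
        have e : t⁻¹ * g * t⁻¹⁻¹ * g⁻¹ =
            (t * (t⁻¹ * g * t) * t⁻¹ * (t⁻¹ * g * t)⁻¹)⁻¹ := by group
        rw [e]; exact O.inv_mem h1 }
  have hCmem : ∀ t, t ∈ C ↔ (t ∈ T ∧ ∀ g ∈ K, t * g * t⁻¹ * g⁻¹ ∈ O) := fun t => Iff.rfl
  have hCT : C ≤ T := fun t ht => ((hCmem t).mp ht).1
  have hCconjT : ∀ y ∈ T, ∀ t ∈ C, y * t * y⁻¹ ∈ C := by
    intro y hy t htC
    obtain ⟨ht, ht'⟩ := (hCmem t).mp htC
    refine (hCmem _).mpr ⟨T.mul_mem (T.mul_mem hy ht) (T.inv_mem hy), fun g hg => ?_⟩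
    have hg' : y⁻¹ * g * y ∈ K := by simpa using cK y⁻¹ (T.inv_mem hy) g hg
    have h1 := cO y (Or.inr hy) _ (ht' _ hg')
    have e : y * t * y⁻¹ * g * (y * t * y⁻¹)⁻¹ * g⁻¹ =
        y * (t * (y⁻¹ * g * y) * t⁻¹ * (y⁻¹ * g * y)⁻¹) * y⁻¹ := by group
    rw [e]; exact h1
  have hCconjK : ∀ y ∈ K, ∀ t ∈ C, y * t * y⁻¹ ∈ C := by
    intro y hy t htC
    obtain ⟨ht, ht'⟩ := (hCmem t).mp htC
    have h0 : y * t * y⁻¹ * t⁻¹ ∈ O := by
      have e : y * t * y⁻¹ * t⁻¹ = (t * y * t⁻¹ * y⁻¹)⁻¹ := by group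
      rw [e]; exact O.inv_mem (ht' y hy)
    have hyt : y * t * y⁻¹ ∈ T := by
      have e : y * t * y⁻¹ = (y * t * y⁻¹ * t⁻¹) * t := by group
      rw [e]; exact T.mul_mem (hOT h0) ht
    refine (hCmem _).mpr ⟨hyt, fun g hg => ?_⟩
    have h1 := ht' g hg
    have h2 := cO g (Or.inl hg) _ (O.inv_mem h0)
    have e : y * t * y⁻¹ * g * (y * t * y⁻¹)⁻¹ * g⁻¹ =
        (y * t * y⁻¹ * t⁻¹) * (t * g * t⁻¹ * g⁻¹) * (g * (y * t * y⁻¹ * t⁻¹)⁻¹ * g⁻¹) := by
      group
    rw [e]; exact O.mul_mem (O.mul_mem h0 h1) h2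
  have hCnorm : K ⊔ T ≤ Subgroup.normalizer (C : Set G) := by
    refine sup_le ?_ ?_
    · intro y hy
      refine mem_normalizer_of_conj C y (hCconjK y hy) (fun t ht => ?_)
      have := hCconjK y⁻¹ (K.inv_mem hy) t ht
      simpa using this
    · intro y hy
      refine mem_normalizer_of_conj C y (hCconjT y hy) (fun t ht => ?_)
      have := hCconjT y⁻¹ (T.inv_mem hy) t ht
      simpa using this
  have hCD : C ≤ D :=
    (hdich' C (hCT.trans le_sup_right) hCnorm).resolve_right (fun h => hkT (hCT (h hkK)))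
  -- inversion
  have hinv : ∀ x ∈ T, x ∉ D → ∀ g ∈ K, x * g * x⁻¹ * g ∈ O := by
    intro x hx hxD g hg
    have hxC : x ∉ C := fun h => hxD (hCD h)
    obtain ⟨o, ho, i, hi⟩ := hKO (x * k * x⁻¹) (cK x hx k hkK)
    have hki : k ^ i = k ^ (i % 3) := by
      conv_lhs => rw [← Nat.mod_add_div i 3]
      rw [pow_add, pow_mul, hk3, one_pow, mul_one]
    rw [hki] at hi
    have hlt : i % 3 < 3 := Nat.mod_lt _ (by norm_num)
    obtain ⟨o', ho', j, hj⟩ := hKO g hg
    have hc : (x * k * x⁻¹) ^ j = x * k ^ j * x⁻¹ := conj_pow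
    rcases (by omega : i % 3 = 0 ∨ i % 3 = 1 ∨ i % 3 = 2) with h0 | h1 | h2
    · exfalso
      rw [h0, pow_zero, mul_one] at hi
      have h := cO x⁻¹ (Or.inr (T.inv_mem hx)) (x * k * x⁻¹) (hi ▸ ho)
      apply hkO
      simpa [mul_assoc] using h
    · exfalso
      rw [h1, pow_one] at hi
      apply hxC
      refine (hCmem x).mpr ⟨hx, fun g' hg' => ?_⟩
      obtain ⟨o'', ho'', j', hj'⟩ := hKO g' hg'
      have hc' : (x * k * x⁻¹) ^ j' = x * k ^ j' * x⁻¹ := conj_pow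
      have key : ∀ j : ℕ, ∀ o' ∈ O, (o * k) ^ j * o' * (k ^ j)⁻¹ ∈ O := by
        intro j
        induction j with
        | zero => intro o' ho'; simpa using ho'
        | succ j ih =>
          intro o' ho'
          have h := ih (o * (k * o' * k⁻¹)) (O.mul_mem ho (cO k (Or.inl hkK) o' ho'))
          have e : (o * k) ^ (j + 1) * o' * (k ^ (j + 1))⁻¹ =
              (o * k) ^ j * (o * (k * o' * k⁻¹)) * (k ^ j)⁻¹ := by
            rw [pow_succ (o * k) j, pow_succ k j]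
            generalize (o * k) ^ j = A
            generalize k ^ j = B
            group
          rw [e]; exact h
      have hmid := key j' 1 O.one_mem
      rw [← hi, hc'] at hmid
      have e : x * g' * x⁻¹ * g'⁻¹ =
          (x * o'' * x⁻¹) * (x * k ^ j' * x⁻¹ * 1 * (k ^ j')⁻¹) * o''⁻¹ := by
        rw [hj']
        generalize k ^ j' = B
        group
      rw [e]
      exact O.mul_mem (O.mul_mem (cO x (Or.inr hx) _ ho'') hmid) (O.inv_mem ho'')
    · rw [h2, pow_two] at hi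
      have key : ∀ j : ℕ, ∀ o' ∈ O, (o * (k * k)) ^ j * o' * k ^ j ∈ O := by
        intro j
        induction j with
        | zero => intro o' ho'; simpa using ho'
        | succ j ih =>
          intro o' ho'
          have h := ih (o * ((k * k) * o' * (k * k)⁻¹))
            (O.mul_mem ho (cO (k * k) (Or.inl (K.mul_mem hkK hkK)) o' ho'))
          have e : (o * (k * k)) ^ (j + 1) * o' * k ^ (j + 1) =
              (o * (k * k)) ^ j * (o * ((k * k) * o' * (k * k)⁻¹) * k ^ 3) * k ^ j := by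
            rw [pow_succ (o * (k * k)) j, pow_succ' k j]
            generalize (o * (k * k)) ^ j = A
            generalize k ^ j = B
            group
          rw [e, hk3, mul_one]; exact h
      have hmid := key j o' ho'
      rw [← hi, hc] at hmid
      have e : x * g * x⁻¹ * g = (x * o' * x⁻¹) * (x * k ^ j * x⁻¹ * o' * k ^ j) := by
        rw [hj]
        generalize k ^ j = B
        group
      rw [e]
      exact O.mul_mem (cO x (Or.inr hx) _ ho') hmid
  exact ⟨D, k, hDT, hOD, le_sup_left.trans hPD, le_sup_right.trans hPD, hD2, hinv, hsq, hcube,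
    hkK, hkO, hk3, hKO, hdich'⟩


end Cfsg.Agent.H97.Jy
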