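import Mathlib
import Cfsg.Agent.H64.JyDefs
import Cfsg.Agent.H64.JzFinal
import Cfsg.Agent.H59.PushKill2
import Cfsg.Agent.S2950
import Cfsg.Agent.H51.Local
import Cfsg.Agent.H54.UqO2SN
import Cfsg.Agent.H54.CharP2
import Cfsg.Agent.Helper55.J48
import Cfsg.Agent.H97.JyPFacts

/-!
# S2953 (JY-KILL2 / JX): the `P`-side interface `StPSide` of helper52, G-level, hypothesis-free

For a configuration `Base S M T K L`, with `D = O₂(K ⊔ T)`: `|T : D| ≤ 2` (elementwise),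
`T ∖ D` inverts `K` modulo `D`, and `K` has an element of order 3 outside `M`.
-/

set_option autoImplicit false
open Cfsg

namespace Cfsg.Agent.H97.Jx

open Cfsg.Agent.H64.Jz Cfsg.Agent.H64.Jy

universe u

/-- JX-PSIDE (the Prop `Cfsg.Agent.H52.Jx.StPSide` of helper52, stated inline). -/
theorem pSide : ∀ {G : Type u} [Group G] [Finite G] (S : Sylow 2 G) (M T K L : Subgroup G),
    Cfsg.Agent.H64.Jz.Base S M T K L →
    (∀ a ∈ T, ∀ b ∈ T, a ∉ pCoreOf 2 (K ⊔ T) → b ∉ pCoreOf 2 (K ⊔ T) →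
      a * b ∈ pCoreOf 2 (K ⊔ T)) ∧
    (∀ x ∈ T, x ∉ pCoreOf 2 (K ⊔ T) → ∀ g ∈ K, x * g * x⁻¹ * g ∈ pCoreOf 2 (K ⊔ T)) ∧
    ∃ k ∈ K, k ^ 3 = 1 ∧ k ∉ M := by
  intro G _ _ S M T K L hB
  have hTK : T ≤ Subgroup.normalizer (K : Set G) :=
    normFinal S M T K L hB (stMain S M T K L hB)
  obtain ⟨hZN, hO, hM, hMJ, hT, -, hK, hLmax, hKL⟩ := hB
  obtain ⟨hc2, hsolv, hZ⟩ := hZN
  obtain ⟨L₀, -, -, huniq, hsn₀, hSyl₀⟩ :=
    Cfsg.Agent.S2950.result hc2 hsolv hZ hO S M hM hMJ T hT K hK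
  have hLL₀ : L = L₀ := huniq L hLmax hKL
  have hSyl : IsSylowTwoIn T L := by rw [hLL₀]; exact hSyl₀
  have hsn : (K.subgroupOf L).IsSubnormal := by rw [hLL₀]; exact hsn₀
  have hKL' : K ≤ L := le_sup_left.trans hKL
  have hQT : pCoreOf 2 L ≤ T := Cfsg.Agent.Helper55.J48.pCoreOf_le_of_sylowIn hSyl
  have hOT : pCoreOf 2 K ≤ T := (Cfsg.Agent.H54.Uq.o2sn K L hKL' hsn).trans hQT
  have hOK : pCoreOf 2 K ≤ K := Cfsg.Agent.H51.pCoreOf_le 2 K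
  have hT2 : IsPGroup 2 ↥T := hSyl.2.1
  have hTM : T ≤ M := hT.1.2.2.1
  obtain ⟨hK0, hKM, -⟩ := hK
  obtain ⟨hgen, -, hidx3, -, -, -⟩ := hK0.1
  have hOnK : K ≤ Subgroup.normalizer (pCoreOf 2 K : Set G) :=
    Cfsg.Agent.H54.le_normalizer_pCoreOf K
  have hOnT : T ≤ Subgroup.normalizer (pCoreOf 2 K : Set G) :=
    hTK.trans (Cfsg.Agent.H54.normalizer_le_normalizer_pCoreOf K)
  obtain ⟨D, k, hDT, hOD, hKD, hTD, hD2, hinv, -, -, hkK, hkO, hk3, hKO, -⟩ :=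
    Cfsg.Agent.H97.Jy.pfacts K T (pCoreOf 2 K) hT2 hTK hOK hOT hidx3 hOnK hOnT hgen
  have hDle : D ≤ pCoreOf 2 (K ⊔ T) :=
    Cfsg.Agent.H51.le_pCoreOf 2 (hDT.trans le_sup_right) (sup_le hKD hTD) (hT2.to_le hDT)
  refine ⟨?_, ?_, k, hkK, hk3, ?_⟩
  · intro a ha b hb haD hbD
    exact hDle (hD2 a ha b hb (fun h => haD (hDle h)) (fun h => hbD (hDle h)))
  · intro x hx hxD g hg
    exact hDle (hOD (hinv x hx (fun h => hxD (hDle h)) g hg))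
  · intro hkM
    apply hKM
    intro g hg
    obtain ⟨o, ho, i, rfl⟩ := hKO g hg
    exact M.mul_mem (hTM (hOT ho)) (M.pow_mem hkM i)


end Cfsg.Agent.H97.Jx
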