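import Mathlib
import Cfsg.Prelude.Def_Classical

set_option autoImplicit false

namespace Cfsg.Agent.H97

open Module Submodule

variable {F : Type*} [Field F] {m : ℕ}

/-- The polar form of `Cfsg.quadFormPlus m F`. -/
noncomputable def polarB (m : ℕ) (F : Type*) [Field F] :
    LinearMap.BilinForm F (Fin m ⊕ Fin m → F) :=
  LinearMap.mk₂ F
    (fun u v => ∑ i : Fin m, (u (.inl i) * v (.inr i) + u (.inr i) * v (.inl i)))
    (by
      intro u₁ u₂ v
      simp only [Pi.add_apply, ← Finset.sum_add_distrib]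
      exact Finset.sum_congr rfl (fun i _ => by ring))
    (by
      intro c u v
      simp only [Pi.smul_apply, smul_eq_mul, Finset.mul_sum]
      exact Finset.sum_congr rfl (fun i _ => by ring))
    (by
      intro u v₁ v₂
      simp only [Pi.add_apply, ← Finset.sum_add_distrib]
      exact Finset.sum_congr rfl (fun i _ => by ring))
    (by
      intro c u v
      simp only [Pi.smul_apply, smul_eq_mul, Finset.mul_sum]
      exact Finset.sum_congr rfl (fun i _ => by ring))

theorem polarB_apply (u v : Fin m ⊕ Fin m → F) :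
    polarB m F u v = ∑ i : Fin m, (u (.inl i) * v (.inr i) + u (.inr i) * v (.inl i)) := rfl

theorem quadFormPlus_add (u v : Fin m ⊕ Fin m → F) :
    Cfsg.quadFormPlus m F (u + v)
      = Cfsg.quadFormPlus m F u + Cfsg.quadFormPlus m F v + polarB m F u v := by
  simp only [Cfsg.quadFormPlus, polarB_apply, Pi.add_apply, ← Finset.sum_add_distrib]
  exact Finset.sum_congr rfl (fun i _ => by ring)

theorem quadFormPlus_smul (c : F) (u : Fin m ⊕ Fin m → F) :
    Cfsg.quadFormPlus m F (c • u) = c ^ 2 * Cfsg.quadFormPlus m F u := by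
  simp only [Cfsg.quadFormPlus, Pi.smul_apply, smul_eq_mul, Finset.mul_sum]
  exact Finset.sum_congr rfl (fun i _ => by ring)

theorem polarB_symm (u v : Fin m ⊕ Fin m → F) : polarB m F u v = polarB m F v u := by
  simp only [polarB_apply]
  exact Finset.sum_congr rfl (fun i _ => by ring)

theorem polarB_isRefl : (polarB m F).IsRefl := fun u v h => by rw [polarB_symm]; exact h

theorem polarB_eq_zero_of_left (u : Fin m ⊕ Fin m → F)
    (h : ∀ v, polarB m F u v = 0) : u = 0 := by
  classical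
  funext s
  rcases s with i | i
  · have := h (Pi.single (Sum.inr i) 1)
    simpa [polarB_apply, Pi.single_apply, Finset.sum_ite_eq'] using this
  · have := h (Pi.single (Sum.inl i) 1)
    simpa [polarB_apply, Pi.single_apply, Finset.sum_ite_eq'] using this

theorem polarB_nondeg : (polarB m F).Nondegenerate := by
  refine ⟨fun u h => polarB_eq_zero_of_left u h, fun u h => polarB_eq_zero_of_left u ?_⟩
  intro v
  rw [polarB_symm]; exact h v

theorem finrank_orth (W : Submodule F (Fin m ⊕ Fin m → F)) :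
    finrank F ((polarB m F).orthogonal W) = 2 * m - finrank F W := by
  rw [LinearMap.BilinForm.finrank_orthogonal polarB_nondeg]
  simp [two_mul]

theorem finrank_le_two_mul (W : Submodule F (Fin m ⊕ Fin m → F)) : finrank F W ≤ 2 * m := by
  have := Submodule.finrank_le W
  simpa [two_mul] using this

theorem orth_sup (A C : Submodule F (Fin m ⊕ Fin m → F)) :
    (polarB m F).orthogonal (A ⊔ C) = (polarB m F).orthogonal A ⊓ (polarB m F).orthogonal C := by
  ext x
  simp only [LinearMap.BilinForm.mem_orthogonal_iff, Submodule.mem_inf, Submodule.mem_sup]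
  constructor
  · intro h
    exact ⟨fun a ha => h a ⟨a, ha, 0, C.zero_mem, by simp⟩,
      fun c hc => h c ⟨0, A.zero_mem, c, hc, by simp⟩⟩
  · rintro ⟨h1, h2⟩ _ ⟨a, ha, c, hc, rfl⟩
    simp [h1 a ha, h2 c hc]

/-- Totally singular subspaces of the hyperbolic quadric. -/
def TS (W : Submodule F (Fin m ⊕ Fin m → F)) : Prop :=
  ∀ w ∈ W, Cfsg.quadFormPlus m F w = 0

theorem TS.polar {W : Submodule F (Fin m ⊕ Fin m → F)} (hW : TS W)
    {u v : Fin m ⊕ Fin m → F} (hu : u ∈ W) (hv : v ∈ W) : polarB m F u v = 0 := by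
  have h := quadFormPlus_add u v
  rw [hW _ (W.add_mem hu hv), hW u hu, hW v hv] at h
  simpa using h.symm

theorem TS.le_orth {W : Submodule F (Fin m ⊕ Fin m → F)} (hW : TS W) :
    W ≤ (polarB m F).orthogonal W := fun _ hv n hn => hW.polar hn hv

theorem TS.mono {W W' : Submodule F (Fin m ⊕ Fin m → F)} (hW : TS W) (h : W' ≤ W) : TS W' :=
  fun w hw => hW w (h hw)

theorem TS.finrank_le {W : Submodule F (Fin m ⊕ Fin m → F)} (hW : TS W) : finrank F W ≤ m := by
  have h1 := Submodule.finrank_mono hW.le_orth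
  rw [finrank_orth] at h1
  omega

theorem TS.orth_eq {W : Submodule F (Fin m ⊕ Fin m → F)} (hW : TS W) (hm : finrank F W = m) :
    (polarB m F).orthogonal W = W := by
  refine (Submodule.eq_of_le_of_finrank_le hW.le_orth ?_).symm
  rw [finrank_orth]; omega

theorem TS.le_orth_of_le {W H : Submodule F (Fin m ⊕ Fin m → F)} (hW : TS W) (h : H ≤ W) :
    W ≤ (polarB m F).orthogonal H :=
  hW.le_orth.trans (LinearMap.BilinForm.orthogonal_le h)

theorem TS.sup {A C : Submodule F (Fin m ⊕ Fin m → F)} (hA : TS A) (hC : TS C)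
    (h : ∀ a ∈ A, ∀ c ∈ C, polarB m F a c = 0) : TS (A ⊔ C) := by
  intro w hw
  obtain ⟨a, ha, c, hc, rfl⟩ := Submodule.mem_sup.mp hw
  rw [quadFormPlus_add, hA a ha, hC c hc, h a ha c hc]; simp

theorem TS.span_singleton {x : Fin m ⊕ Fin m → F} (hx : Cfsg.quadFormPlus m F x = 0) :
    TS (F ∙ x) := by
  intro w hw
  obtain ⟨c, rfl⟩ := Submodule.mem_span_singleton.mp hw
  rw [quadFormPlus_smul, hx, mul_zero]

/-- A totally singular subspace `H` lies in a maximal one, built from any given maximal one. -/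
theorem TS.exists_max_ge {U H : Submodule F (Fin m ⊕ Fin m → F)} (hU : TS U)
    (hUm : finrank F U = m) (hH : TS H) :
    TS ((U ⊓ (polarB m F).orthogonal H) ⊔ H) ∧
      finrank F ↥((U ⊓ (polarB m F).orthogonal H) ⊔ H) = m := by
  constructor
  · refine TS.sup (hU.mono inf_le_left) hH ?_
    intro a ha c hc
    rw [polarB_symm]
    exact ha.2 c hc
  · have e1 : U ⊓ (polarB m F).orthogonal H = (polarB m F).orthogonal (U ⊔ H) := by
      rw [orth_sup, hU.orth_eq hUm]
    have e2 : (U ⊓ (polarB m F).orthogonal H) ⊓ H = U ⊓ H := by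
      rw [inf_assoc, inf_eq_right.mpr hH.le_orth]
    have h1 := Submodule.finrank_sup_add_finrank_inf_eq (U ⊓ (polarB m F).orthogonal H) H
    have h2 := Submodule.finrank_sup_add_finrank_inf_eq U H
    have h3 := finrank_orth (U ⊔ H)
    have h4 := finrank_le_two_mul (U ⊔ H)
    rw [e2] at h1
    rw [← e1] at h3
    omega

theorem TS.finrank_inf_orth {U H : Submodule F (Fin m ⊕ Fin m → F)} (hU : TS U)
    (hUm : finrank F U = m) :
    finrank F ↥(U ⊓ (polarB m F).orthogonal H) + finrank F H = m + finrank F ↥(U ⊓ H) := by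
  have e1 : U ⊓ (polarB m F).orthogonal H = (polarB m F).orthogonal (U ⊔ H) := by
    rw [orth_sup, hU.orth_eq hUm]
  have h2 := Submodule.finrank_sup_add_finrank_inf_eq U H
  have h3 := finrank_orth (U ⊔ H)
  have h4 := finrank_le_two_mul (U ⊔ H)
  rw [← e1] at h3
  omega

/-- Two maximal totally singular subspaces meeting in codimension one are the only maximal
totally singular subspaces containing their intersection. -/
theorem TS.eq_or_eq_of_adjacent {W W' M : Submodule F (Fin m ⊕ Fin m → F)}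
    (hW : TS W) (hWm : finrank F W = m) (hW' : TS W') (hW'm : finrank F W' = m)
    (hadj : finrank F ↥(W ⊓ W') + 1 = m) (hM : TS M) (hMm : finrank F M = m)
    (hHM : W ⊓ W' ≤ M) : M = W ∨ M = W' := by
  have hsup : W ⊔ W' = (polarB m F).orthogonal (W ⊓ W') := by
    refine Submodule.eq_of_le_of_finrank_le
      (sup_le (hW.le_orth_of_le inf_le_left) (hW'.le_orth_of_le inf_le_right)) ?_
    have h1 := Submodule.finrank_sup_add_finrank_inf_eq W W'
    rw [finrank_orth]
    omega
  have hMle : M ≤ W ⊔ W' := hsup ▸ hM.le_orth_of_le hHM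
  have key : ∀ x ∈ M, x ∈ W ∨ x ∈ W' := by
    intro x hx
    obtain ⟨a, ha, a', ha', rfl⟩ := Submodule.mem_sup.mp (hMle hx)
    have hB : polarB m F a a' = 0 := by
      have h := quadFormPlus_add a a'
      rw [hM _ hx, hW a ha, hW' a' ha'] at h
      simpa using h.symm
    by_cases haH : a ∈ W ⊓ W'
    · exact Or.inr (W'.add_mem (inf_le_right (a := W) haH) ha')
    · left
      have hspan : (W ⊓ W') ⊔ (F ∙ a) = W := by
        refine Submodule.eq_of_le_of_finrank_le
          (sup_le inf_le_left ((Submodule.span_singleton_le_iff_mem a W).mpr ha)) ?_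
        have hlt : W ⊓ W' < (W ⊓ W') ⊔ (F ∙ a) := by
          refine lt_of_le_of_ne le_sup_left ?_
          intro h
          exact haH (h ▸ (le_sup_right : (F ∙ a) ≤ (W ⊓ W') ⊔ (F ∙ a)) (Submodule.mem_span_singleton_self a))
        have := Submodule.finrank_lt_finrank_of_lt hlt
        omega
      have ha'W : a' ∈ (polarB m F).orthogonal W := by
        rw [← hspan]
        intro n hn
        obtain ⟨h, hh, c, hc, rfl⟩ := Submodule.mem_sup.mp hn
        obtain ⟨t, rfl⟩ := Submodule.mem_span_singleton.mp hc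
        have e1 : polarB m F h a' = 0 := hW'.polar (inf_le_right (a := W) hh) ha'
        simp [e1, hB]
      rw [hW.orth_eq hWm] at ha'W
      exact W.add_mem ha ha'W
  have hor : M ≤ W ∨ M ≤ W' := by
    by_contra hcon
    push Not at hcon
    obtain ⟨h1, h2⟩ := hcon
    obtain ⟨x, hxM, hxW⟩ := SetLike.not_le_iff_exists.mp h1
    obtain ⟨y, hyM, hyW'⟩ := SetLike.not_le_iff_exists.mp h2
    have hxW' : x ∈ W' := (key x hxM).resolve_left hxW
    have hyW : y ∈ W := (key y hyM).resolve_right hyW'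
    rcases key (x + y) (M.add_mem hxM hyM) with h | h
    · exact hxW (by simpa using W.sub_mem h hyW)
    · exact hyW' (by simpa using W'.sub_mem h hxW')
  rcases hor with h | h
  · exact Or.inl (Submodule.eq_of_le_of_finrank_le h (by omega))
  · exact Or.inr (Submodule.eq_of_le_of_finrank_le h (by omega))

theorem TS.adjacent_aux {W W' U : Submodule F (Fin m ⊕ Fin m → F)}
    (hW : TS W) (hWm : finrank F W = m) (hW' : TS W') (hW'm : finrank F W' = m)
    (hadj : finrank F ↥(W ⊓ W') + 1 = m) (hU : TS U) (hUm : finrank F U = m)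
    (hM : (U ⊓ (polarB m F).orthogonal (W ⊓ W')) ⊔ (W ⊓ W') = W) :
    finrank F ↥(U ⊓ W) = finrank F ↥(U ⊓ W') + 1 := by
  have e1 : U ⊓ W = U ⊓ (polarB m F).orthogonal (W ⊓ W') := by
    apply le_antisymm
    · exact inf_le_inf_left U (hW.le_orth_of_le inf_le_left)
    · refine le_inf inf_le_left ?_
      calc U ⊓ (polarB m F).orthogonal (W ⊓ W') ≤ _ := le_sup_left
        _ = W := hM
  have e2 : U ⊓ W' = U ⊓ (W ⊓ W') := by
    apply le_antisymm
    · refine le_inf inf_le_left (le_inf ?_ inf_le_right)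
      calc U ⊓ W' ≤ U ⊓ (polarB m F).orthogonal (W ⊓ W') :=
            inf_le_inf_left U (hW'.le_orth_of_le inf_le_right)
        _ = U ⊓ W := e1.symm
        _ ≤ W := inf_le_right
    · exact inf_le_inf_left U inf_le_right
  have h := TS.finrank_inf_orth (H := W ⊓ W') hU hUm
  rw [e1, e2]
  omega

/-- If two maximal totally singular subspaces meet in codimension one, the dimensions of their
intersections with any third maximal totally singular subspace differ by exactly one. -/
theorem TS.adjacent_inter {W W' U : Submodule F (Fin m ⊕ Fin m → F)}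
    (hW : TS W) (hWm : finrank F W = m) (hW' : TS W') (hW'm : finrank F W' = m)
    (hadj : finrank F ↥(W ⊓ W') + 1 = m) (hU : TS U) (hUm : finrank F U = m) :
    finrank F ↥(U ⊓ W) = finrank F ↥(U ⊓ W') + 1 ∨
      finrank F ↥(U ⊓ W') = finrank F ↥(U ⊓ W) + 1 := by
  have hH : TS (W ⊓ W') := hW.mono inf_le_left
  obtain ⟨hM, hMm⟩ := TS.exists_max_ge hU hUm hH
  rcases TS.eq_or_eq_of_adjacent hW hWm hW' hW'm hadj hM hMm le_sup_right with h | h
  · exact Or.inl (TS.adjacent_aux hW hWm hW' hW'm hadj hU hUm h)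
  · right
    have hadj' : finrank F ↥(W' ⊓ W) + 1 = m := by rw [inf_comm]; exact hadj
    refine TS.adjacent_aux hW' hW'm hW hWm hadj' hU hUm ?_
    rw [inf_comm W' W]; exact h

/-- Given a maximal totally singular `U` and a singular vector `x ∉ U`, a maximal totally
singular subspace through `x` meeting `U` in codimension one. -/
theorem TS.exists_adjacent {U : Submodule F (Fin m ⊕ Fin m → F)} (hU : TS U)
    (hUm : finrank F U = m) {x : Fin m ⊕ Fin m → F} (hx : Cfsg.quadFormPlus m F x = 0)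
    (hxU : x ∉ U) :
    ∃ W : Submodule F (Fin m ⊕ Fin m → F), TS W ∧ finrank F W = m ∧ x ∈ W ∧
      U ⊓ (polarB m F).orthogonal (F ∙ x) ≤ W ∧ finrank F ↥(U ⊓ W) + 1 = m := by
  have hH : TS (F ∙ x) := TS.span_singleton hx
  obtain ⟨hM, hMm⟩ := TS.exists_max_ge hU hUm hH
  refine ⟨_, hM, hMm, le_sup_right (a := U ⊓ (polarB m F).orthogonal (F ∙ x))
    (Submodule.mem_span_singleton_self x), le_sup_left, ?_⟩
  set W := (U ⊓ (polarB m F).orthogonal (F ∙ x)) ⊔ (F ∙ x) with hWdef
  have hx0 : x ≠ 0 := fun h => hxU (h ▸ U.zero_mem)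
  have h1 : finrank F (F ∙ x) = 1 := finrank_span_singleton hx0
  have h2 : U ⊓ (F ∙ x) = ⊥ := by
    rw [eq_bot_iff]
    rintro y ⟨hyU, hyx⟩
    obtain ⟨c, rfl⟩ := Submodule.mem_span_singleton.mp hyx
    by_cases hc : c = 0
    · simp [hc]
    · exfalso
      apply hxU
      have := U.smul_mem c⁻¹ hyU
      rwa [smul_smul, inv_mul_cancel₀ hc, one_smul] at this
  have h3 := TS.finrank_inf_orth (H := F ∙ x) hU hUm
  rw [h2, finrank_bot, h1] at h3
  have h4 : U ⊓ (polarB m F).orthogonal (F ∙ x) ≤ U ⊓ W := le_inf inf_le_left le_sup_left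
  have h5 := Submodule.finrank_mono h4
  have h6 : finrank F ↥(U ⊓ W) < m := by
    by_contra hcon
    push Not at hcon
    have e : U ⊓ W = U := Submodule.eq_of_le_of_finrank_le inf_le_left (by omega)
    have hUW : U ≤ W := e ▸ inf_le_right
    have : U = W := Submodule.eq_of_le_of_finrank_le hUW (by omega)
    exact hxU (this ▸ le_sup_right (a := U ⊓ (polarB m F).orthogonal (F ∙ x))
      (Submodule.mem_span_singleton_self x))
  omega

/-- The parity statement: codimensions of pairwise intersections of maximal totally singular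
subspaces. -/
theorem TS.parity_aux (n : ℕ) : ∀ W X U : Submodule F (Fin m ⊕ Fin m → F),
    TS W → finrank F W = m → TS X → finrank F X = m → TS U → finrank F U = m →
    m - finrank F ↥(W ⊓ X) = n →
    Even ((m - finrank F ↥(U ⊓ W)) + (m - finrank F ↥(U ⊓ X)) + n) := by
  induction n with
  | zero =>
    intro W X U hW hWm hX hXm hU hUm hn
    have hle : finrank F ↥(W ⊓ X) ≤ m := (hW.mono inf_le_left).finrank_le
    have e1 : W ⊓ X = W := Submodule.eq_of_le_of_finrank_le inf_le_left (by omega)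
    have e2 : W ⊓ X = X := Submodule.eq_of_le_of_finrank_le inf_le_right (by omega)
    have : W = X := e1.symm.trans e2
    subst this
    exact ⟨m - finrank F ↥(U ⊓ W), by omega⟩
  | succ n ih =>
    intro W X U hW hWm hX hXm hU hUm hn
    have hXW : ¬ X ≤ W := by
      intro h
      have : W ⊓ X = X := inf_eq_right.mpr h
      rw [this, hXm] at hn
      omega
    obtain ⟨x, hxX, hxW⟩ := SetLike.not_le_iff_exists.mp hXW
    obtain ⟨W₁, hW₁, hW₁m, hxW₁, hle, hadj⟩ := TS.exists_adjacent hW hWm (hX x hxX) hxW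
    have hXWle : X ⊓ W ≤ X ⊓ W₁ := by
      refine le_inf inf_le_left (le_trans ?_ hle)
      refine le_inf inf_le_right ?_
      rintro y ⟨hyX, -⟩ n hn
      obtain ⟨c, rfl⟩ := Submodule.mem_span_singleton.mp hn
      exact hX.polar (X.smul_mem c hxX) hyX
    have hmono := Submodule.finrank_mono hXWle
    have hXW₁ : finrank F ↥(X ⊓ W₁) = finrank F ↥(X ⊓ W) + 1 := by
      rcases TS.adjacent_inter hW hWm hW₁ hW₁m hadj hX hXm with h | h
      · omega
      · exact h
    have hle1 : finrank F ↥(X ⊓ W₁) ≤ m := (hX.mono inf_le_left).finrank_le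
    have hn' : m - finrank F ↥(W₁ ⊓ X) = n := by
      rw [inf_comm W₁ X, hXW₁]
      rw [inf_comm W X] at hn
      omega
    have ih' := ih W₁ X U hW₁ hW₁m hX hXm hU hUm hn'
    have hUW : finrank F ↥(U ⊓ W) ≤ m := (hU.mono inf_le_left).finrank_le
    have hUW₁ : finrank F ↥(U ⊓ W₁) ≤ m := (hU.mono inf_le_left).finrank_le
    rw [Nat.even_iff] at ih' ⊢
    rcases TS.adjacent_inter hW hWm hW₁ hW₁m hadj hU hUm with h | h <;> omega

/-- The standard maximal totally singular subspace `{v | v ∘ inr = 0}`. -/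
def stdE (m : ℕ) (F : Type*) [Field F] : Submodule F (Fin m ⊕ Fin m → F) where
  carrier := {v | ∀ i : Fin m, v (.inr i) = 0}
  add_mem' := by intro a b ha hb i; simp [ha i, hb i]
  zero_mem' := by intro i; rfl
  smul_mem' := by intro c a ha i; simp [ha i]

/-- The opposite standard maximal totally singular subspace `{v | v ∘ inl = 0}`. -/
def stdE' (m : ℕ) (F : Type*) [Field F] : Submodule F (Fin m ⊕ Fin m → F) where
  carrier := {v | ∀ i : Fin m, v (.inl i) = 0}
  add_mem' := by intro a b ha hb i; simp [ha i, hb i]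
  zero_mem' := by intro i; rfl
  smul_mem' := by intro c a ha i; simp [ha i]

theorem stdE_TS : TS (stdE m F) := by
  intro w hw
  have hw' : ∀ i : Fin m, w (.inr i) = 0 := hw
  simp [Cfsg.quadFormPlus, hw']

theorem stdE'_TS : TS (stdE' m F) := by
  intro w hw
  have hw' : ∀ i : Fin m, w (.inl i) = 0 := hw
  simp [Cfsg.quadFormPlus, hw']

theorem stdE_sup : stdE m F ⊔ stdE' m F = ⊤ := by
  rw [eq_top_iff]
  intro v _
  refine Submodule.mem_sup.mpr ⟨Sum.elim (fun i => v (.inl i)) (fun _ => 0), ?_,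
    Sum.elim (fun _ => 0) (fun i => v (.inr i)), ?_, ?_⟩
  · intro i; rfl
  · intro i; rfl
  · funext s; rcases s with i | i <;> simp

theorem stdE_finrank : finrank F (stdE m F) = m := by
  have h1 := Submodule.finrank_sup_add_finrank_inf_eq (stdE m F) (stdE' m F)
  rw [stdE_sup, finrank_top] at h1
  have h2 : finrank F (Fin m ⊕ Fin m → F) = 2 * m := by simp [two_mul]
  have h3 := (stdE_TS (m := m) (F := F)).finrank_le
  have h4 := (stdE'_TS (m := m) (F := F)).finrank_le
  omega

/-- A totally singular subspace of dimension `m - 1` lies in exactly two maximal totally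
singular subspaces. -/
theorem TS.exists_two {H : Submodule F (Fin m ⊕ Fin m → F)} (hH : TS H)
    (hHm : finrank F H + 1 = m) :
    ∃ M₁ M₂ : Submodule F (Fin m ⊕ Fin m → F), M₁ ≠ M₂ ∧
      (TS M₁ ∧ finrank F M₁ = m ∧ H ≤ M₁) ∧ (TS M₂ ∧ finrank F M₂ = m ∧ H ≤ M₂) ∧
      ∀ M : Submodule F (Fin m ⊕ Fin m → F), TS M → finrank F M = m → H ≤ M →
        M = M₁ ∨ M = M₂ := by
  obtain ⟨hM₁, hM₁m⟩ := TS.exists_max_ge (stdE_TS (m := m) (F := F)) stdE_finrank hH
  set M₁ := (stdE m F ⊓ (polarB m F).orthogonal H) ⊔ H with hM₁def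
  have hHM₁ : H ≤ M₁ := le_sup_right
  have hM₁orth : M₁ ≤ (polarB m F).orthogonal H := hM₁.le_orth_of_le hHM₁
  -- a vector of `H^⊥` outside `M₁`
  have hex : ∃ v ∈ (polarB m F).orthogonal H, v ∉ M₁ := by
    by_contra hcon
    push Not at hcon
    have hle : (polarB m F).orthogonal H ≤ M₁ := hcon
    have h1 := Submodule.finrank_mono hle
    rw [finrank_orth] at h1
    omega
  obtain ⟨v, hvH, hvM₁⟩ := hex
  have hex2 : ∃ w ∈ M₁, polarB m F w v ≠ 0 := by
    by_contra hcon
    push Not at hcon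
    have : v ∈ (polarB m F).orthogonal M₁ := hcon
    rw [hM₁.orth_eq hM₁m] at this
    exact hvM₁ this
  obtain ⟨w, hwM₁, hwv⟩ := hex2
  set c : F := Cfsg.quadFormPlus m F v / polarB m F w v with hc
  set v' : Fin m ⊕ Fin m → F := v + (-c) • w with hv'
  have hv'Q : Cfsg.quadFormPlus m F v' = 0 := by
    rw [hv', quadFormPlus_add, quadFormPlus_smul, hM₁ w hwM₁, map_smul, polarB_symm v w,
      smul_eq_mul, mul_zero, add_zero, neg_mul, hc, div_mul_cancel₀ _ hwv, add_neg_cancel]
  have hv'H : v' ∈ (polarB m F).orthogonal H :=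
    Submodule.add_mem _ hvH (Submodule.smul_mem _ _ (hM₁orth hwM₁))
  have hv'M₁ : v' ∉ M₁ := by
    intro h
    apply hvM₁
    have : v = v' - (-c) • w := by rw [hv']; abel
    rw [this]
    exact M₁.sub_mem h (M₁.smul_mem _ hwM₁)
  have hv'Hn : v' ∉ H := fun h => hv'M₁ (hHM₁ h)
  have hM₂ : TS (H ⊔ (F ∙ v')) := by
    refine TS.sup hH (TS.span_singleton hv'Q) ?_
    intro a ha b hb
    obtain ⟨t, rfl⟩ := Submodule.mem_span_singleton.mp hb
    rw [map_smul, hv'H a ha, smul_zero]
  have hM₂m : finrank F ↥(H ⊔ (F ∙ v')) = m := by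
    have hlt : H < H ⊔ (F ∙ v') := by
      refine lt_of_le_of_ne le_sup_left ?_
      intro h
      exact hv'Hn (h ▸ (le_sup_right : (F ∙ v') ≤ H ⊔ (F ∙ v'))
        (Submodule.mem_span_singleton_self v'))
    have h1 := Submodule.finrank_lt_finrank_of_lt hlt
    have h2 := hM₂.finrank_le
    omega
  have hne : M₁ ≠ H ⊔ (F ∙ v') := by
    intro h
    exact hv'M₁ (h ▸ (le_sup_right : (F ∙ v') ≤ H ⊔ (F ∙ v'))
      (Submodule.mem_span_singleton_self v'))
  refine ⟨M₁, H ⊔ (F ∙ v'), hne, ⟨hM₁, hM₁m, hHM₁⟩, ⟨hM₂, hM₂m, le_sup_left⟩, ?_⟩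
  intro M hM hMm hHM
  have hHle : H ≤ M₁ ⊓ (H ⊔ (F ∙ v')) := le_inf hHM₁ le_sup_left
  have h1 := Submodule.finrank_mono hHle
  have h2 : finrank F ↥(M₁ ⊓ (H ⊔ (F ∙ v'))) < m := by
    by_contra hcon
    push Not at hcon
    have e1 : M₁ ⊓ (H ⊔ (F ∙ v')) = M₁ :=
      Submodule.eq_of_le_of_finrank_le inf_le_left (by omega)
    have e2 : M₁ ⊓ (H ⊔ (F ∙ v')) = H ⊔ (F ∙ v') :=
      Submodule.eq_of_le_of_finrank_le inf_le_right (by omega)
    exact hne (e1.symm.trans e2)
  have e3 : H = M₁ ⊓ (H ⊔ (F ∙ v')) := Submodule.eq_of_le_of_finrank_le hHle (by omega)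
  exact TS.eq_or_eq_of_adjacent hM₁ hM₁m hM₂ hM₂m (by omega) hM hMm (e3 ▸ hHM)

end Cfsg.Agent.H97
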