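import Mathlib
import Cfsg.Agent.H64.JzDefs
import Cfsg.Agent.Helper55.UqBase
import Cfsg.Agent.H97.J46.S46
import Cfsg.Agent.S2950

/-!
# JZ-Z2 (piece of S2951, helper64): for `T < S`, `Ω₁Z(S)` has order 2
-/

set_option autoImplicit false
open Cfsg

universe u

namespace Cfsg.Agent.H97.Jz

open Cfsg.Agent.Helper55 Cfsg.Agent.Helper55.ThJ Cfsg.Agent.Helper55.J48 Cfsg.Agent.H64.Jz

variable {G : Type u} [Group G] [Finite G]

section
omit [Finite G]

theorem memZ (P : Subgroup G) {z : G} (hz : z ∈ omegaCenterOf P) :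
    z ∈ P ∧ (∀ p ∈ P, p * z = z * p) ∧ z * z = 1 := by
  unfold omegaCenterOf omegaOne at hz
  induction hz using Subgroup.closure_induction with
  | mem y hy =>
    refine ⟨(Subgroup.mem_inf.mp hy.1).1, fun p hp => ?_, ?_⟩
    · exact (Subgroup.mem_centralizer_iff.mp (Subgroup.mem_inf.mp hy.1).2) p hp
    · have := hy.2
      rwa [pow_two] at this
  | one => exact ⟨one_mem _, fun p _ => by simp, by simp⟩
  | mul a b _ _ ha hb =>
    refine ⟨mul_mem ha.1 hb.1, fun p hp => ?_, ?_⟩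
    · rw [← mul_assoc, ha.2.1 p hp, mul_assoc, hb.2.1 p hp, mul_assoc]
    · have hc : b * a = a * b := ha.2.1 b hb.1
      calc a * b * (a * b) = a * (b * a) * b := by group
        _ = a * (a * b) * b := by rw [hc]
        _ = (a * a) * (b * b) := by group
        _ = 1 := by rw [ha.2.2, hb.2.2, one_mul]
  | inv a _ ha =>
    refine ⟨inv_mem ha.1, fun p hp => ?_, ?_⟩
    · have h := ha.2.1 p hp
      calc p * a⁻¹ = a⁻¹ * (a * p) * a⁻¹ := by group
        _ = a⁻¹ * (p * a) * a⁻¹ := by rw [h]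
        _ = a⁻¹ * p := by group
    · calc a⁻¹ * a⁻¹ = (a * a)⁻¹ := by group
        _ = 1 := by rw [ha.2.2, inv_one]

theorem Z_of (P : Subgroup G) {z : G} (h1 : z ∈ P) (h2 : ∀ p ∈ P, p * z = z * p)
    (h3 : z * z = 1) : z ∈ omegaCenterOf P := by
  unfold omegaCenterOf omegaOne
  refine Subgroup.subset_closure ⟨Subgroup.mem_inf.mpr ⟨h1, ?_⟩, ?_⟩
  · exact Subgroup.mem_centralizer_iff.mpr h2
  · rw [pow_two]; exact h3

theorem elemAb_closure (S : Set G) (hc : ∀ s ∈ S, ∀ t ∈ S, s * t = t * s)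
    (h2 : ∀ s ∈ S, s * s = 1) : IsElementaryAbelian 2 (Subgroup.closure S) := by
  have hcomm : ∀ g ∈ Subgroup.closure S, ∀ h ∈ Subgroup.closure S, g * h = h * g := by
    intro g hg h hh
    have h1 : Subgroup.closure S ≤ Subgroup.centralizer (Subgroup.closure S : Set G) := by
      rw [Subgroup.closure_le]
      intro s hs
      rw [SetLike.mem_coe, Subgroup.mem_centralizer_iff]
      intro y hy
      have h2 : Subgroup.closure S ≤ Subgroup.centralizer ({s} : Set G) := by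
        rw [Subgroup.closure_le]
        intro t ht
        rw [SetLike.mem_coe, Subgroup.mem_centralizer_iff]
        intro r hr
        rw [Set.mem_singleton_iff] at hr
        subst hr
        exact hc r hs t ht
      exact (Subgroup.mem_centralizer_iff.mp (h2 hy) s rfl).symm
    exact (Subgroup.mem_centralizer_iff.mp (h1 hg) h hh).symm
  refine ⟨⟨⟨fun a b => Subtype.ext (hcomm a.1 a.2 b.1 b.2)⟩⟩, ?_⟩
  intro g hg
  induction hg using Subgroup.closure_induction with
  | mem y hy => rw [pow_two]; exact h2 y hy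
  | one => simp
  | mul a b ha hb iha ihb =>
    have hab : a * b = b * a := hcomm a ha b hb
    rw [pow_two] at iha ihb ⊢
    calc a * b * (a * b) = a * (b * a) * b := by group
      _ = a * (a * b) * b := by rw [← hab]
      _ = (a * a) * (b * b) := by group
      _ = 1 := by rw [iha, ihb, one_mul]
  | inv a ha iha =>
    rw [pow_two] at iha ⊢
    calc a⁻¹ * a⁻¹ = (a * a)⁻¹ := by group
      _ = 1 := by rw [iha, inv_one]

end

/-- `Ω₁Z(T) ≤ J(T)`. -/
theorem omegaCenterOf_le_J (T : Subgroup G) : omegaCenterOf T ≤ thompsonSubgroupOf 2 T := by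
  intro x hx
  obtain ⟨hxT, hxC, hx2⟩ := memZ T hx
  obtain ⟨A, hAT, hAe, hAc⟩ := gens_nonempty T
  have hAcomm : ∀ a ∈ A, ∀ b ∈ A, a * b = b * a := fun a ha b hb =>
    congrArg Subtype.val (hAe.1.is_comm.comm ⟨a, ha⟩ ⟨b, hb⟩)
  have hA2 : ∀ a ∈ A, a * a = 1 := fun a ha => by
    have := hAe.2 a ha
    rwa [pow_two] at this
  have hBe : IsElementaryAbelian 2 (Subgroup.closure ((A : Set G) ∪ {x})) := by
    apply elemAb_closure
    · rintro s (hs | hs) t (ht | ht)
      · exact hAcomm s hs t ht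
      · rw [Set.mem_singleton_iff] at ht
        rw [ht]
        exact hxC s (hAT hs)
      · rw [Set.mem_singleton_iff] at hs
        rw [hs]
        exact (hxC t (hAT ht)).symm
      · rw [Set.mem_singleton_iff] at hs ht
        rw [hs, ht]
    · rintro s (hs | hs)
      · exact hA2 s hs
      · rw [Set.mem_singleton_iff] at hs
        rw [hs]
        exact hx2
  have hBT : Subgroup.closure ((A : Set G) ∪ {x}) ≤ T := by
    rw [Subgroup.closure_le]
    rintro s (hs | hs)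
    · exact hAT hs
    · rw [Set.mem_singleton_iff] at hs
      rw [hs]
      exact hxT
  have hcard := card_le_a T hBT hBe
  have hAB : A ≤ Subgroup.closure ((A : Set G) ∪ {x}) := fun a ha =>
    Subgroup.subset_closure (Or.inl ha)
  have hEq : A = Subgroup.closure ((A : Set G) ∪ {x}) :=
    Subgroup.eq_of_le_of_card_ge hAB (by rw [hAc]; exact hcard)
  have hxB : x ∈ Subgroup.closure ((A : Set G) ∪ {x}) :=
    Subgroup.subset_closure (Or.inr (Set.mem_singleton x))
  rw [← hEq] at hxB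
  exact gen_le_J ⟨hAT, hAe, hAc⟩ hxB

/-- `Ω₁Z(T) ≤ Ω₁Z(J(T))`. -/
theorem omegaCenterOf_le_Z0 (T : Subgroup G) :
    omegaCenterOf T ≤ omegaCenterOf (thompsonSubgroupOf 2 T) := by
  intro x hx
  obtain ⟨-, hxC, hx2⟩ := memZ T hx
  exact Z_of _ (omegaCenterOf_le_J T hx) (fun p hp => hxC p (J_le T hp)) hx2

/-- A nontrivial 2-subgroup has a nontrivial `Ω₁Z`. -/
theorem exists_omegaCenterOf_ne_one {P : Subgroup G} (hP : IsPGroup 2 ↥P) (hne : P ≠ ⊥) :
    ∃ z ∈ omegaCenterOf P, z ≠ 1 := by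
  haveI : Fact (Nat.Prime 2) := ⟨Nat.prime_two⟩
  haveI : Nontrivial ↥P := (Subgroup.nontrivial_iff_ne_bot P).mpr hne
  have hc : Nontrivial (Subgroup.center ↥P) := hP.center_nontrivial
  have hcP : IsPGroup 2 ↥(Subgroup.center ↥P) := hP.to_subgroup _
  have h2 : 2 ∣ Nat.card ↥(Subgroup.center ↥P) := by
    rcases hcP.card_eq_or_dvd with h | h
    · have := Finite.one_lt_card (α := ↥(Subgroup.center ↥P))
      omega
    · exact h
  obtain ⟨c, hc2⟩ := exists_prime_orderOf_dvd_card' 2 h2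
  have hcc : c * c = 1 := by
    have h := pow_orderOf_eq_one c
    rwa [hc2, pow_two] at h
  refine ⟨((c : ↥P) : G), ?_, ?_⟩
  · apply Z_of P (c : ↥P).2
    · intro p hp
      have := Subgroup.mem_center_iff.mp c.2 ⟨p, hp⟩
      exact congrArg Subtype.val this
    · have := congrArg (fun t : ↥(Subgroup.center ↥P) => ((t : ↥P) : G)) hcc
      simpa using this
  · intro h1
    have : c = 1 := by
      apply Subtype.ext
      apply Subtype.ext
      simpa using h1
    rw [this, orderOf_one] at hc2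
    omega

/-- A 2-subgroup between a Sylow 2-subgroup of `L` and `L` is that Sylow subgroup. -/
theorem le_of_sylowTwoIn {T L P : Subgroup G} (h : IsSylowTwoIn T L) (hTP : T ≤ P) (hPL : P ≤ L)
    (hP : IsPGroup 2 ↥P) : P ≤ T := by
  haveI : Fact (Nat.Prime 2) := ⟨Nat.prime_two⟩
  obtain ⟨-, -, hodd⟩ := h
  have h1 : T.relIndex P * P.relIndex L = T.relIndex L := Subgroup.relIndex_mul_relIndex T P L hTP hPL
  have hodd' : Odd (T.relIndex P) := by
    rw [← h1] at hodd
    exact (Nat.odd_mul.mp hodd).1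
  obtain ⟨n, hn⟩ := IsPGroup.iff_card.mp hP
  have hdvd : T.relIndex P ∣ Nat.card ↥P := by
    unfold Subgroup.relIndex
    exact Subgroup.index_dvd_card _
  rw [hn] at hdvd
  obtain ⟨k, -, hk⟩ := (Nat.dvd_prime_pow Nat.prime_two).mp hdvd
  have hk0 : k = 0 := by
    by_contra hk0
    rw [hk] at hodd'
    have : Even (2 ^ k) := Nat.even_pow.mpr ⟨even_two, hk0⟩
    exact (Nat.not_even_iff_odd.mpr hodd') this
  rw [hk0, pow_zero] at hk
  exact Subgroup.relIndex_eq_one.mp hk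

/-- If `Z₁ ⊔ W₀ = Z₀` with `Z₀` abelian of exponent 2 and `W₀ = {1, w}`, every element of `Z₀`
lies in `Z₁` or in `Z₁ w`. -/
theorem mem_or_mul_mem {Z₀ Z₁ W₀ : Subgroup G} (hcomm : ∀ a ∈ Z₀, ∀ b ∈ Z₀, a * b = b * a)
    (hZ₁ : Z₁ ≤ Z₀) (hW₀ : W₀ ≤ Z₀) (hsup : Z₁ ⊔ W₀ = Z₀) {w : G} (hw : w ∈ W₀)
    (hww : w * w = 1) (hW : ∀ v ∈ W₀, v = 1 ∨ v = w) :
    ∀ g ∈ Z₀, g ∈ Z₁ ∨ g * w ∈ Z₁ := by
  intro g hg
  rw [← hsup, Subgroup.sup_eq_closure] at hg
  have hcl : Subgroup.closure ((Z₁ : Set G) ∪ (W₀ : Set G)) ≤ Z₀ := by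
    rw [Subgroup.closure_le]
    rintro s (hs | hs)
    · exact hZ₁ hs
    · exact hW₀ hs
  have hwZ : w ∈ Z₀ := hW₀ hw
  induction hg using Subgroup.closure_induction with
  | mem y hy =>
    rcases hy with hy | hy
    · exact Or.inl hy
    · rcases hW y hy with h | h
      · rw [h]; exact Or.inl (one_mem _)
      · rw [h, hww]; exact Or.inr (one_mem _)
  | one => exact Or.inl (one_mem _)
  | mul a b ha hb iha ihb =>
    have haZ : a ∈ Z₀ := hcl ha
    have hbZ : b ∈ Z₀ := hcl hb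
    rcases iha with iha | iha <;> rcases ihb with ihb | ihb
    · exact Or.inl (mul_mem iha ihb)
    · right
      rw [mul_assoc]
      exact mul_mem iha ihb
    · right
      have e : a * b * w = (a * w) * b := by
        rw [mul_assoc, hcomm b hbZ w hwZ, ← mul_assoc]
      rw [e]
      exact mul_mem iha ihb
    · left
      have e : a * b = (a * w) * (b * w) := by
        calc a * b = a * (b * (w * w)) := by rw [hww, mul_one]
          _ = a * ((b * w) * w) := by rw [mul_assoc]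
          _ = a * (w * (b * w)) := by rw [hcomm (b * w) (mul_mem hbZ hwZ) w hwZ]
          _ = (a * w) * (b * w) := by rw [mul_assoc]
      rw [e]
      exact mul_mem iha ihb
  | inv a ha iha =>
    have haZ : a ∈ Z₀ := hcl ha
    rcases iha with iha | iha
    · exact Or.inl (inv_mem iha)
    · right
      have hwinv : w⁻¹ = w := inv_eq_of_mul_eq_one_left hww
      have e : a⁻¹ * w = (a * w)⁻¹ := by
        rw [mul_inv_rev, hwinv]
        exact hcomm a⁻¹ (inv_mem haZ) w hwZ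
      rw [e]
      exact inv_mem iha

theorem z2 : StZ2.{u} := by
  intro G _ _ S M T K L hB hTS
  haveI : Fact (Nat.Prime 2) := ⟨Nat.prime_two⟩
  obtain ⟨⟨hL, hN, hZ⟩, hO, hM, hMJ, hT, hTSle, hK, hLmax, hKL⟩ := hB
  have hT2 : IsPGroup 2 ↥T := hT.1.1
  have hT1 : T ≠ ⊥ := hT.1.2.1
  obtain ⟨L₁, hL₁max, hXL₁, -, hov₁, -⟩ :=
    Cfsg.Agent.Helper55.Uq.exists_max hL hN hZ S M hMJ T hT K hK
  obtain ⟨L₀, hL₀max, hKL₀, huniq, -, -⟩ :=
    Cfsg.Agent.S2950.result hL hN hZ hO S M hM hMJ T hT K hK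
  have hKL₁ : K ⊔ thompsonSubgroupOf 2 T ≤ L₁ := (sup_le_sup_left (J_le T) K).trans hXL₁
  have e1 : L₁ = L₀ := huniq L₁ hL₁max hKL₁
  have e2 : L = L₀ := huniq L hLmax hKL
  have hov : L ∈ jOvergroups T := by
    rw [e2, ← e1]
    exact hov₁
  obtain ⟨hsyl, -, hcent⟩ := hov
  have hZS : ∀ z ∈ omegaCenterOf (S : Subgroup G), z ∈ (S : Subgroup G) ∧
      (∀ p ∈ (S : Subgroup G), p * z = z * p) ∧ z * z = 1 :=
    fun z hz => memZ _ hz
  have hQT : pCoreOf 2 L ≤ T := pCoreOf_le_of_sylowIn hsyl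
  have hZT : omegaCenterOf (S : Subgroup G) ≤ T := by
    intro z hz
    obtain ⟨-, hc, -⟩ := hZS z hz
    apply hQT
    apply hcent
    rw [Subgroup.mem_centralizer_iff]
    intro q hq
    exact hc q (hTSle (hQT hq))
  have hZZ0 : omegaCenterOf (S : Subgroup G) ≤ omegaCenterOf (thompsonSubgroupOf 2 T) := by
    intro z hz
    obtain ⟨-, hc, h2⟩ := hZS z hz
    exact omegaCenterOf_le_Z0 T
      (Z_of T (hZT hz) (fun p hp => hc p (hTSle hp)) h2)
  obtain ⟨hW2, hsup⟩ := Cfsg.Agent.H97.J46.s2946 hL hN hZ T hT2 hT1 K hK.1.1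
    (omegaCenterOf (thompsonSubgroupOf 2 T)) rfl
  -- `Z ∩ Z₁ = 1`
  have hdisj : ∀ y ∈ omegaCenterOf (S : Subgroup G),
      y ∈ (K ⊔ thompsonSubgroupOf 2 T) ⊓
        Subgroup.centralizer ((K ⊔ thompsonSubgroupOf 2 T) : Set G) → y = 1 := by
    intro y hyZ hyC
    by_contra hy1
    obtain ⟨hyS, hyc, hy2⟩ := hZS y hyZ
    have hloc : IsTwoLocal (Subgroup.normalizer ((Subgroup.zpowers y : Subgroup G) : Set G)) := by
      refine ⟨Subgroup.zpowers y, ?_, ?_, rfl⟩
      · exact S.isPGroup'.to_le ((Subgroup.zpowers_le).mpr hyS)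
      · intro h
        apply hy1
        have : y ∈ Subgroup.zpowers y := Subgroup.mem_zpowers y
        rw [h] at this
        exact Subgroup.mem_bot.mp this
    obtain ⟨L₂, hL₂max, hNL₂⟩ := Cfsg.Agent.Helper55.Uq.exists_maximalTwoLocal hloc
    have hcz : ∀ g : G, g * y = y * g →
        g ∈ Subgroup.normalizer ((Subgroup.zpowers y : Subgroup G) : Set G) := by
      intro g hg
      apply Subgroup.centralizer_le_normalizer
      rw [Subgroup.mem_centralizer_iff]
      intro h hh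
      obtain ⟨k, rfl⟩ := Subgroup.mem_zpowers_iff.mp hh
      have hc : Commute y g := hg.symm
      exact (hc.zpow_left k).eq
    have hSL : (S : Subgroup G) ≤ L := by
      intro s hs
      have h1 : s ∈ L₂ := hNL₂ (hcz s (hyc s hs))
      have hyc' := Subgroup.mem_centralizer_iff.mp (Subgroup.mem_inf.mp hyC).2
      have hKJc : K ⊔ thompsonSubgroupOf 2 T ≤ Subgroup.centralizer ({y} : Set G) := by
        refine sup_le ?_ ?_
        · intro k hk
          rw [Subgroup.mem_centralizer_iff]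
          intro h hh
          rw [Set.mem_singleton_iff] at hh
          rw [hh]
          exact (hyc' k (Or.inl hk)).symm
        · intro k hk
          rw [Subgroup.mem_centralizer_iff]
          intro h hh
          rw [Set.mem_singleton_iff] at hh
          rw [hh]
          exact (hyc' k (Or.inr hk)).symm
      have hKL₂ : K ⊔ thompsonSubgroupOf 2 T ≤ L₂ := by
        intro g hg
        exact hNL₂ (hcz g ((Subgroup.mem_centralizer_iff.mp (hKJc hg)) y rfl).symm)
      have e3 : L₂ = L₀ := huniq L₂ hL₂max hKL₂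
      rw [e2, ← e3]
      exact h1
    exact hTS (le_antisymm hTSle (le_of_sylowTwoIn hsyl hTSle hSL S.isPGroup'))
  -- the structure of `Z₀`
  have hZ0 : ∀ z ∈ omegaCenterOf (thompsonSubgroupOf 2 T), z ∈ thompsonSubgroupOf 2 T ∧
      (∀ p ∈ thompsonSubgroupOf 2 T, p * z = z * p) ∧ z * z = 1 :=
    fun z hz => memZ _ hz
  have hcomm0 : ∀ a ∈ omegaCenterOf (thompsonSubgroupOf 2 T),
      ∀ b ∈ omegaCenterOf (thompsonSubgroupOf 2 T), a * b = b * a :=
    fun a ha b hb => (hZ0 b hb).2.1 a (hZ0 a ha).1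
  obtain ⟨⟨w, hwW⟩, hw1, hwu⟩ := (Nat.card_eq_two_iff' (1 : ↥(omegaCenterOf (thompsonSubgroupOf 2 T) ⊓ wOf K))).mp hW2
  have hw1' : w ≠ 1 := fun h => hw1 (Subtype.ext h)
  have hWall : ∀ v ∈ omegaCenterOf (thompsonSubgroupOf 2 T) ⊓ wOf K, v = 1 ∨ v = w := by
    intro v hv
    by_cases h : v = 1
    · exact Or.inl h
    · right
      have := hwu ⟨v, hv⟩ (fun h' => h (congrArg Subtype.val h'))
      exact congrArg Subtype.val this
  have hww : w * w = 1 := (hZ0 w (Subgroup.mem_inf.mp hwW).1).2.2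
  have hdec := mem_or_mul_mem hcomm0 inf_le_left inf_le_left hsup hwW hww hWall
  -- every nontrivial element `z` of `Z` has `z * w ∈ Z₁`
  have hzw : ∀ z ∈ omegaCenterOf (S : Subgroup G), z ≠ 1 →
      z * w ∈ omegaCenterOf (thompsonSubgroupOf 2 T) ⊓ ((K ⊔ thompsonSubgroupOf 2 T) ⊓
        Subgroup.centralizer ((K ⊔ thompsonSubgroupOf 2 T) : Set G)) := by
    intro z hz hz1
    rcases hdec z (hZZ0 hz) with h | h
    · exact absurd (hdisj z hz (Subgroup.mem_inf.mp h).2) hz1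
    · exact h
  obtain ⟨z₀, hz₀, hz₀1⟩ := exists_omegaCenterOf_ne_one S.isPGroup'
    (fun h => hT1 (by rw [eq_bot_iff, ← h]; exact hTSle))
  rw [Nat.card_eq_two_iff' (1 : ↥(omegaCenterOf (S : Subgroup G)))]
  refine ⟨⟨z₀, hz₀⟩, fun h => hz₀1 (congrArg Subtype.val h), ?_⟩
  rintro ⟨z, hz⟩ hz1
  have hz1' : z ≠ 1 := fun h => hz1 (Subtype.ext h)
  apply Subtype.ext
  show z = z₀
  have h1 := hzw z hz hz1'
  have h2 := hzw z₀ hz₀ hz₀1
  have h3 : z * z₀⁻¹ ∈ omegaCenterOf (thompsonSubgroupOf 2 T) ⊓ ((K ⊔ thompsonSubgroupOf 2 T) ⊓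
        Subgroup.centralizer ((K ⊔ thompsonSubgroupOf 2 T) : Set G)) := by
    have e : z * z₀⁻¹ = (z * w) * (z₀ * w)⁻¹ := by group
    rw [e]
    exact mul_mem h1 (inv_mem h2)
  have h4 : z * z₀⁻¹ = 1 :=
    hdisj _ (mul_mem hz (inv_mem hz₀)) (Subgroup.mem_inf.mp h3).2
  exact mul_inv_eq_one.mp h4

example : Cfsg.Agent.H64.Jz.StZ2.{u} := z2

end Cfsg.Agent.H97.Jz

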