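import Mathlib
import Cfsg.Agent.H97.JzZ2
import Cfsg.Agent.H52.SrMain
import Cfsg.Agent.H34.JkTI
import Cfsg.Agent.H12.JkTI

/-!
# K-CONJ (piece of JZ-KILL, S2951 / S2952): in the residual situation every element of
`V = Ω₁Z(O₂(L))` is `L`-conjugate into `Ω₁Z(J(S))`
-/

set_option autoImplicit false
open Cfsg

universe u

namespace Cfsg.Agent.H97.Jk

open Cfsg.Agent.Helper55 Cfsg.Agent.Helper55.ThJ Cfsg.Agent.Helper55.J48 Cfsg.Agent.H64.Jz
open Cfsg.Agent.H59.JzK Cfsg.Agent.H97.Jz Cfsg.Agent.H52.Sr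

theorem kConj : Cfsg.Agent.H34.Jk.StKConj.{u} := by
  intro G _ _ S M K L T' K' L' hR u hu
  haveI : Fact (Nat.Prime 2) := ⟨Nat.prime_two⟩
  obtain ⟨hB, hX, hB', hne⟩ := hR
  have hZ2 : Nat.card ↥(omegaCenterOf (S : Subgroup G)) = 2 :=
    Cfsg.Agent.H97.Jz.z2 S L T' K' L' hB' hne
  obtain ⟨⟨hL, hN, hZ⟩, hO, hM, hMJ, hT, -, hK, hLmax, hKL⟩ := hB
  have hS1 : (S : Subgroup G) ≠ ⊥ := hT.1.2.1
  obtain ⟨L₁, hL₁max, hXL₁, -, hov₁, -⟩ :=
    Cfsg.Agent.Helper55.Uq.exists_max hL hN hZ S M hMJ (S : Subgroup G) hT K hK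
  obtain ⟨L₀, hL₀max, hKL₀, huniq, -, -⟩ :=
    Cfsg.Agent.S2950.result hL hN hZ hO S M hM hMJ (S : Subgroup G) hT K hK
  have hKL₁ : K ⊔ thompsonSubgroupOf 2 (S : Subgroup G) ≤ L₁ :=
    (sup_le_sup_left (J_le (S : Subgroup G)) K).trans hXL₁
  have e1 : L₁ = L₀ := huniq L₁ hL₁max hKL₁
  have e2 : L = L₀ := huniq L hLmax hKL
  have hov : L ∈ jOvergroups (S : Subgroup G) := by
    rw [e2, ← e1]
    exact hov₁
  have hsyl : IsSylowTwoIn (S : Subgroup G) L := hov.1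
  have hQS : pCoreOf 2 L ≤ (S : Subgroup G) := pCoreOf_le_of_sylowIn hsyl
  have hKL' : K ≤ L := le_sup_left.trans hKL
  have hV : ∀ v ∈ omegaCenterOf (pCoreOf 2 L), v ∈ pCoreOf 2 L ∧
      (∀ p ∈ pCoreOf 2 L, p * v = v * p) ∧ v * v = 1 := fun v hv => memZ _ hv
  -- the fixed point hypothesis of the structure statement
  have hfix : ∀ v ∈ omegaCenterOf (pCoreOf 2 L), v ∈ Subgroup.centralizer ((S : Subgroup G) : Set G) →
      v ∈ Subgroup.centralizer (K : Set G) → v = 1 := by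
    intro v hv hvS hvK
    by_contra hv1
    obtain ⟨hvQ, -, hvv⟩ := hV v hv
    have hvZ : v ∈ omegaCenterOf (S : Subgroup G) :=
      Z_of _ (hQS hvQ) (fun p hp => Subgroup.mem_centralizer_iff.mp hvS p hp) hvv
    obtain ⟨y, hy1, hyu⟩ := (Nat.card_eq_two_iff' (1 : ↥(omegaCenterOf (S : Subgroup G)))).mp hZ2
    have hall : ∀ z ∈ omegaCenterOf (S : Subgroup G), z = 1 ∨ z = v := by
      intro z hz
      by_cases h : z = 1
      · exact Or.inl h
      · right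
        have h1 := hyu ⟨z, hz⟩ (fun h' => h (congrArg Subtype.val h'))
        have h2 := hyu ⟨v, hvZ⟩ (fun h' => hv1 (congrArg Subtype.val h'))
        have := h1.trans h2.symm
        exact congrArg Subtype.val this
    have hKC : K ≤ Subgroup.centralizer ((omegaCenterOf (S : Subgroup G) : Subgroup G) : Set G) := by
      intro k hk
      rw [Subgroup.mem_centralizer_iff]
      intro z hz
      rcases hall z hz with h | h
      · rw [h, one_mul, mul_one]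
      · rw [h]
        exact (Subgroup.mem_centralizer_iff.mp hvK k hk).symm
    exact hK.2.1 (((hKC.trans (hZ S)).trans (normalizer_le (S : Subgroup G))).trans hMJ)
  obtain ⟨hsup, -, hcomp, -, hcent, hfpf⟩ :=
    Cfsg.Agent.H52.Sr.struct hL hN hZ (S : Subgroup G) S.isPGroup' hS1 L hov K hK.1.1 hKL' hfix
  have hVc : ∀ a ∈ omegaCenterOf (pCoreOf 2 L), ∀ b ∈ omegaCenterOf (pCoreOf 2 L),
      a * b = b * a := fun a ha b hb => (hV b hb).2.1 a (hV a ha).1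
  have hWV : ∀ i : Orb (S : Subgroup G) K, wOf i.1 ≤ omegaCenterOf (pCoreOf 2 L) := by
    intro i
    rw [← hsup]
    exact le_iSup (fun i : Orb (S : Subgroup G) K => wOf i.1) i
  have htrans : ∀ i : Orb (S : Subgroup G) K, ∀ a ∈ wOf i.1, a ≠ 1 → ∀ b ∈ wOf i.1, b ≠ 1 →
      ∃ k ∈ i.1, k * a * k⁻¹ = b := by
    intro i a ha ha1 b hb hb1
    have hKW : i.1 ≤ Subgroup.normalizer (wOf i.1 : Set G) := by
      apply Cfsg.Agent.H31.X.H54.le_normalizer_of_conj_mem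
      intro g hg x hx
      exact Cfsg.Agent.H51.Jc.wOf_norm (K := i.1) (J := ⊥) bot_le g
        (Subgroup.mem_sup_left hg) x hx
    exact Cfsg.Agent.H34.Jz.trans_of_fpf (wOf i.1) i.1 (hcomp i).2.2 (hcomp i).1.2.2.2.2.2 hKW
      (hfpf i) a b ha ha1 hb hb1
  have hY : ∀ i : Orb (S : Subgroup G) K, ∃ y ∈ wOf i.1, y ≠ 1 ∧
      y ∈ omegaCenterOf (thompsonSubgroupOf 2 (S : Subgroup G)) := by
    intro i
    obtain ⟨h2, -⟩ := Cfsg.Agent.H97.J46.s2946 hL hN hZ (S : Subgroup G) S.isPGroup' hS1 i.1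
      (hcomp i).1 (omegaCenterOf (thompsonSubgroupOf 2 (S : Subgroup G))) rfl
    obtain ⟨⟨y, hy⟩, hy1, -⟩ := (Nat.card_eq_two_iff' (1 : ↥(omegaCenterOf
      (thompsonSubgroupOf 2 (S : Subgroup G)) ⊓ wOf i.1))).mp h2
    exact ⟨y, (Subgroup.mem_inf.mp hy).2, fun h => hy1 (Subtype.ext h), (Subgroup.mem_inf.mp hy).1⟩
  obtain ⟨k, hkL, hk⟩ := Cfsg.Agent.H34.Jz.conj_into (fun i : Orb (S : Subgroup G) K => i.1)
    (fun i : Orb (S : Subgroup G) K => wOf i.1) (omegaCenterOf (pCoreOf 2 L))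
    (omegaCenterOf (thompsonSubgroupOf 2 (S : Subgroup G))) L hsup.ge hWV hVc hcent htrans hY
    (fun i => (hcomp i).2.1) u hu
  exact ⟨k, hkL, (Subgroup.mem_inf.mp hk).1⟩

/-- The same in the shape of helper12 (`C_G(J(S))` as target). -/
theorem kConjJ : Cfsg.Agent.H12.Jk.StKConjJ.{u} := by
  intro G _ _ S M K L T' K' L' hR u hu
  obtain ⟨k, hkL, hk⟩ := kConj S M K L T' K' L' hR u hu
  refine ⟨k, hkL, ?_⟩
  rw [Subgroup.mem_centralizer_iff]
  intro p hp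
  exact (memZ _ hk).2.1 p hp

example : Cfsg.Agent.H34.Jk.StKConj.{u} := kConj
example : Cfsg.Agent.H12.Jk.StKConjJ.{u} := kConjJ

end Cfsg.Agent.H97.Jk

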