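import Mathlib
import Cfsg.Agent.H52.JxDefs
import Cfsg.Agent.H48.JyV
import Cfsg.Agent.H8.JyExA
import Cfsg.Agent.H82.JvCaseA
import Cfsg.Agent.H59.JxPF
import Cfsg.Agent.H97.JxPSide

/-!
# S2953 (JY-KILL2 / JX): the case `V ≤ Q₁` (`StKA`), hypothesis-free

Glue of helper82's abstract `caseA` with helper48's `vfacts`, helper8's `exA`, helper59's `pf`
and `Cfsg.Agent.H97.Jx.pSide`.
-/

set_option autoImplicit false
open Cfsg

namespace Cfsg.Agent.H97.Jx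

open Cfsg.Agent.H64.Jz Cfsg.Agent.H64.Jy

universe u

/-- JX-KA: in the residual configuration, `V = Ω₁Z(O₂(L)) ≤ O₂(K' ⊔ T')` is impossible. -/
theorem ka : Cfsg.Agent.H52.Jx.StKA.{u} := by
  intro G _ _ S M K L T' K' L' hR hVQ
  obtain ⟨hB, hN, hB', hT'⟩ := hR
  obtain ⟨hV4, hVe, hNV, -, -, hTI⟩ :=
    Cfsg.Agent.H48.Jy.vfacts S M K L T' K' L' hB hN hB' hT'
  obtain ⟨hD2, hinv, k, hkK, hk3, hkL⟩ := Cfsg.Agent.H97.Jx.pSide S L T' K' L' hB'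
  obtain ⟨A, a, hAT, -, hAe, hmax, -, haA, haQ⟩ := Cfsg.Agent.H8.Jy.exA S L T' K' L' hB'
  obtain ⟨hQT, -, hPQ⟩ := Cfsg.Agent.H59.Jx.pf S L T' K' L' hB'
  have hT'S : T' ≤ (S : Subgroup G) := hB'.2.2.2.2.2.1
  have hSL : (S : Subgroup G) ≤ L := Subgroup.le_normalizer.trans hN
  have hT'N : T' ≤ Subgroup.normalizer (omegaCenterOf (pCoreOf 2 L) : Set G) := by
    rw [hNV]; exact hT'S.trans hSL
  refine Cfsg.Agent.H82.Jv.caseA T' (pCoreOf 2 (K' ⊔ T')) (omegaCenterOf (pCoreOf 2 L)) A k a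
    hQT hVQ hV4 hVe ?_ (hQT.trans hT'N) (hPQ (le_sup_left (a := K') (b := T') hkK)) hk3 ?_
    hAT hAe hmax haA (hT'N (hAT haA)) ?_ ?_
  · intro g hg
    rw [hNV]; exact hTI g hg
  · rw [hNV]; exact hkL
  · exact hinv a (hAT haA) haQ k hkK
  · intro t ht
    by_cases htQ : t ∈ pCoreOf 2 (K' ⊔ T')
    · exact Or.inl htQ
    · exact Or.inr (hD2 t (hAT ht) a (hAT haA) htQ haQ)

example : Cfsg.Agent.H52.Jx.StKA.{u} := ka


end Cfsg.Agent.H97.Jx
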