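import Mathlib
import Cfsg.Agent.H97.Nilp
import Cfsg.Agent.H97.Herm

set_option autoImplicit false

namespace Cfsg.Agent.H97.Nilp

open Matrix Cfsg.Agent.H97.Herm

variable {K : Type*} [Field K] [Finite K] {n : ℕ}

theorem rank_le_rank_map (σ : K →+* K) (M : Matrix (Fin n) (Fin n) K) :
    M.rank ≤ (M.map σ).rank := by
  have hinj : Function.Injective (fun w : LinearMap.range M.mulVecLin =>
      (⟨fun i => σ ((w : Fin n → K) i), by
        obtain ⟨v, hv⟩ := w.2
        refine ⟨fun i => σ (v i), ?_⟩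
        funext i
        rw [← hv]
        exact (RingHom.map_mulVec σ M v i).symm⟩ : LinearMap.range (M.map σ).mulVecLin)) := by
    intro w1 w2 h
    apply Subtype.ext
    funext i
    have := congrFun (congrArg Subtype.val h) i
    exact σ.injective this
  have hcard := Nat.card_le_card_of_injective _ hinj
  rw [Module.natCard_eq_pow_finrank (K := K) (V := LinearMap.range M.mulVecLin),
    Module.natCard_eq_pow_finrank (K := K) (V := LinearMap.range (M.map σ).mulVecLin)] at hcard
  exact (Nat.pow_le_pow_iff_right Finite.one_lt_card).mp hcard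

theorem rank_map_eq (σ : K →+* K) (hσ : ∀ x, σ (σ x) = x) (M : Matrix (Fin n) (Fin n) K) :
    (M.map σ).rank = M.rank := by
  apply le_antisymm
  · have h := rank_le_rank_map σ (M.map σ)
    have h2 : (M.map σ).map σ = M := by
      ext i j
      simp [hσ]
    rwa [h2] at h
  · exact rank_le_rank_map σ M

theorem rank_adj (σ : K →+* K) (hσ : ∀ x, σ (σ x) = x) (M : Matrix (Fin n) (Fin n) K) :
    (adj σ M).rank = M.rank := by
  show ((M.map σ)ᵀ).rank = M.rank
  rw [Matrix.rank_transpose, rank_map_eq σ hσ]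

omit [Finite K] in
theorem adj_pow (σ : K →+* K) (M : Matrix (Fin n) (Fin n) K) (k : ℕ) :
    adj σ (M ^ k) = (adj σ M) ^ k := by
  induction k with
  | zero => rw [pow_zero, pow_zero, adj_one]
  | succ k ih => rw [pow_succ, adj_mul, ih, pow_succ']

omit [Finite K] in
theorem adj_sub_one (σ : K →+* K) (M : Matrix (Fin n) (Fin n) K) :
    adj σ (M - 1) = adj σ M - 1 := by
  have := adj_add σ (M - 1) 1
  rw [sub_add_cancel, adj_one] at this
  rw [this, add_sub_cancel_right]

/-- a unipotent matrix is similar to the inverse of its conjugate transpose -/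
theorem conj_adj_inv (σ : K →+* K) (hσ : ∀ x, σ (σ x) = x) (u : GL (Fin n) K)
    (hu : ∃ e, ((u : Matrix (Fin n) (Fin n) K) - 1) ^ e = 0) :
    IsConj (u : Matrix (Fin n) (Fin n) K)
      (adj σ ((u⁻¹ : GL (Fin n) K) : Matrix (Fin n) (Fin n) K)) := by
  have hrank : ∀ k, (((u : Matrix (Fin n) (Fin n) K) - 1) ^ k).rank =
      ((adj σ ((u⁻¹ : GL (Fin n) K) : Matrix (Fin n) (Fin n) K) - 1) ^ k).rank := by
    intro k
    rw [← adj_sub_one, ← adj_pow, rank_adj σ hσ]
    have h1 : ((u⁻¹ : GL (Fin n) K) : Matrix (Fin n) (Fin n) K) - 1 =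
        ((-u⁻¹ : GL (Fin n) K) : Matrix (Fin n) (Fin n) K) *
          ((u : Matrix (Fin n) (Fin n) K) - 1) := by
      rw [Units.val_neg, neg_mul, mul_sub, Units.inv_mul, mul_one, neg_sub]
    have hc : Commute ((-u⁻¹ : GL (Fin n) K) : Matrix (Fin n) (Fin n) K)
        ((u : Matrix (Fin n) (Fin n) K) - 1) := by
      rw [Units.val_neg]
      apply Commute.neg_left
      apply Commute.sub_right _ (Commute.one_right _)
      show _ * _ = _ * _
      rw [Units.inv_mul, Units.mul_inv]
    rw [h1, hc.mul_pow, ← Units.val_pow_eq_pow_val,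
      Matrix.rank_mul_eq_right_of_isUnit_det _ _ (Matrix.isUnits_det_units _)]
  obtain ⟨P, Q, hPQ, hQP, hPA⟩ := mat_conj_of_rank _ _ hu hrank
  refine ⟨⟨P, Q, hPQ, hQP⟩, ?_⟩
  show P * _ = _ * P
  rw [mul_sub, sub_mul, mul_one, one_mul] at hPA
  exact sub_left_inj.mp hPA

end Cfsg.Agent.H97.Nilp
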