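import Mathlib

set_option autoImplicit false
namespace Cfsg.Agent.H97
open Finset

section
variable (p q : ℕ) [Fact p.Prime]

/-- Composition of a Dirichlet character mod `p` with the norm `GF(p^q) → F_p`. -/
noncomputable def normChar (χ : MulChar (ZMod p) ℂ) : MulChar (GaloisField p q) ℂ :=
  MulChar.ofUnitHom (χ.toUnitHom.comp
    (Units.map (Algebra.norm (ZMod p) : GaloisField p q →* ZMod p)))

variable {p q}

theorem normChar_apply (χ : MulChar (ZMod p) ℂ) (a : GaloisField p q) :
    normChar p q χ a = χ (Algebra.norm (ZMod p) a) := by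
  by_cases ha : a = 0
  · subst ha
    rw [Algebra.norm_zero, MulChar.map_zero, MulChar.map_zero]
  · obtain ⟨u, rfl⟩ := isUnit_iff_ne_zero.mpr ha
    simp [normChar]

theorem normChar_one : normChar p q (1 : MulChar (ZMod p) ℂ) = 1 := by
  ext a
  rw [normChar_apply, MulChar.one_apply_coe]
  exact MulChar.one_apply ((Units.map (Algebra.norm (ZMod p) : GaloisField p q →* ZMod p) a).isUnit)

theorem normChar_mul (χ ψ : MulChar (ZMod p) ℂ) :
    normChar p q (χ * ψ) = normChar p q χ * normChar p q ψ := by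
  ext a
  simp [normChar_apply, MulChar.mul_apply]

theorem normChar_ne_one [Fact q.Prime] {χ : MulChar (ZMod p) ℂ} (hχ : χ ≠ 1) : normChar p q χ ≠ 1 := by
  intro h
  apply hχ
  ext c
  obtain ⟨u, hu⟩ := FiniteField.unitsMap_norm_surjective (ZMod p) (GaloisField p q) c
  have h1 : normChar p q χ (u : GaloisField p q) = 1 := by rw [h, MulChar.one_apply_coe]
  rw [normChar_apply] at h1
  rw [MulChar.one_apply_coe, ← hu]
  simpa using h1

theorem normChar_norm_le_one (χ : MulChar (ZMod p) ℂ) (a : GaloisField p q) :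
    ‖normChar p q χ a‖ ≤ 1 := by
  rw [normChar_apply]
  exact DirichletCharacter.norm_le_one χ _


theorem sum_mul_two_sub {F : Type*} [Field F] [Fintype F] (h2 : (2 : F) ≠ 0) (χ ψ : MulChar F ℂ) :
    ∑ a : F, χ a * ψ (2 - a) = χ 2 * ψ 2 * jacobiSum χ ψ := by
  rw [jacobiSum, Finset.mul_sum]
  refine (Fintype.sum_equiv (Equiv.mulLeft₀ (2 : F) h2) _ _ (fun x => ?_)).symm
  have : (2 : F) - 2 * x = 2 * (1 - x) := by ring
  simp only [Equiv.mulLeft₀_apply, this, map_mul]
  ring

variable [Fintype (GaloisField p q)]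

theorem jacobi_norm_le [Fact q.Prime] (hq : q ≠ 0) {B : ℝ} (hB0 : 1 ≤ B) (hB : ((p : ℝ)) ^ q ≤ B ^ 2)
    (χ ψ : MulChar (ZMod p) ℂ) (h : ¬ (χ = 1 ∧ ψ = 1)) :
    ‖jacobiSum (normChar p q χ) (normChar p q ψ)‖ ≤ B := by
  by_cases hχ : χ = 1
  · have hψ : ψ ≠ 1 := fun h' => h ⟨hχ, h'⟩
    rw [hχ, normChar_one, jacobiSum_one_nontrivial (normChar_ne_one hψ)]
    simpa using hB0
  by_cases hψ : ψ = 1
  · rw [hψ, normChar_one, jacobiSum_comm, jacobiSum_one_nontrivial (normChar_ne_one hχ)]
    simpa using hB0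
  by_cases hχψ : χ * ψ = 1
  · have h1 : normChar p q ψ = (normChar p q χ)⁻¹ := by
      apply eq_inv_of_mul_eq_one_right
      rw [← normChar_mul, hχψ, normChar_one]
    rw [h1, jacobiSum_nontrivial_inv (normChar_ne_one hχ), norm_neg]
    exact (normChar_norm_le_one χ _).trans hB0
  · have hcard : Fintype.card (GaloisField p q) = p ^ q := by
      rw [← Nat.card_eq_fintype_card, GaloisField.card p q hq]
    have hchar : ringChar ℂ ≠ ringChar (GaloisField p q) := by
      rw [ringChar.eq_zero, ringChar.eq (GaloisField p q) p]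
      exact (Fact.out : p.Prime).ne_zero.symm
    have key := jacobiSum_mul_jacobiSum_inv hchar (normChar_ne_one (q := q) hχ)
      (normChar_ne_one (q := q) hψ) (by rw [← normChar_mul]; exact normChar_ne_one hχψ)
    have hconj : jacobiSum (normChar p q χ)⁻¹ (normChar p q ψ)⁻¹
        = (starRingEnd ℂ) (jacobiSum (normChar p q χ) (normChar p q ψ)) := by
      simp only [jacobiSum, map_sum, map_mul]
      refine Finset.sum_congr rfl (fun x _ => ?_)
      rw [← MulChar.star_apply', ← MulChar.star_apply']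
      rfl
    rw [hconj, Complex.mul_conj, hcard, Complex.normSq_eq_norm_sq] at key
    have key2 : ‖jacobiSum (normChar p q χ) (normChar p q ψ)‖ ^ 2 = (p : ℝ) ^ q := by
      exact_mod_cast key
    have hB' : 0 ≤ B := le_trans zero_le_one hB0
    exact (sq_le_sq₀ (norm_nonneg _) hB').mp (key2 ▸ hB)

theorem card_identity [Fact q.Prime] (hp : p ≠ 2) :
    (((p : ℂ) - 1) ^ 2) * ((univ.filter (fun a : GaloisField p q =>
        Algebra.norm (ZMod p) a = 1 ∧ Algebra.norm (ZMod p) (2 - a) = 1)).card : ℂ)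
      = ∑ χ : DirichletCharacter ℂ p, ∑ ψ : DirichletCharacter ℂ p,
          normChar p q χ 2 * normChar p q ψ 2 * jacobiSum (normChar p q χ) (normChar p q ψ) := by
  have hpp : p.Prime := Fact.out
  have h2 : (2 : GaloisField p q) ≠ 0 := by
    intro h
    have h' : ((2 : ℕ) : GaloisField p q) = 0 := by exact_mod_cast h
    rw [CharP.cast_eq_zero_iff (GaloisField p q) p] at h'
    have := Nat.le_of_dvd (by norm_num) h'
    have := hpp.two_le
    omega
  have htot : ∀ x : ZMod p, ∑ χ : DirichletCharacter ℂ p, χ x = if x = 1 then ((p : ℂ) - 1) else 0 := by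
    intro x
    rw [DirichletCharacter.sum_characters_eq ℂ x, Nat.totient_prime hpp, Nat.cast_sub hpp.one_le,
      Nat.cast_one]
  have hstep : ∀ χ ψ : DirichletCharacter ℂ p,
      normChar p q χ 2 * normChar p q ψ 2 * jacobiSum (normChar p q χ) (normChar p q ψ)
        = ∑ a : GaloisField p q, χ (Algebra.norm (ZMod p) a) * ψ (Algebra.norm (ZMod p) (2 - a)) := by
    intro χ ψ
    rw [← sum_mul_two_sub h2]
    refine Finset.sum_congr rfl (fun a _ => ?_)
    rw [normChar_apply, normChar_apply]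
  simp_rw [hstep]
  have hswap : ∑ χ : DirichletCharacter ℂ p, ∑ ψ : DirichletCharacter ℂ p,
      ∑ a : GaloisField p q, χ (Algebra.norm (ZMod p) a) * ψ (Algebra.norm (ZMod p) (2 - a))
      = ∑ a : GaloisField p q, (∑ χ : DirichletCharacter ℂ p, χ (Algebra.norm (ZMod p) a))
          * (∑ ψ : DirichletCharacter ℂ p, ψ (Algebra.norm (ZMod p) (2 - a))) := by
    calc ∑ χ : DirichletCharacter ℂ p, ∑ ψ : DirichletCharacter ℂ p,
          ∑ a : GaloisField p q, χ (Algebra.norm (ZMod p) a) * ψ (Algebra.norm (ZMod p) (2 - a))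
        = ∑ χ : DirichletCharacter ℂ p, ∑ a : GaloisField p q, ∑ ψ : DirichletCharacter ℂ p,
          χ (Algebra.norm (ZMod p) a) * ψ (Algebra.norm (ZMod p) (2 - a)) :=
          Finset.sum_congr rfl (fun χ _ => Finset.sum_comm)
      _ = ∑ a : GaloisField p q, ∑ χ : DirichletCharacter ℂ p, ∑ ψ : DirichletCharacter ℂ p,
          χ (Algebra.norm (ZMod p) a) * ψ (Algebra.norm (ZMod p) (2 - a)) := Finset.sum_comm
      _ = _ := Finset.sum_congr rfl (fun a _ => (Finset.sum_mul_sum _ _ _ _).symm)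
  rw [hswap]
  simp_rw [htot]
  rw [Finset.natCast_card_filter, Finset.mul_sum]
  refine Finset.sum_congr rfl (fun a _ => ?_)
  by_cases h1 : Algebra.norm (ZMod p) a = 1 <;> by_cases h2' : Algebra.norm (ZMod p) (2 - a) = 1 <;>
    simp [h1, h2', sq]

theorem two_le_card_of_five_le [Fact q.Prime] (hp : p ≠ 2) (hq5 : 5 ≤ q) (hqodd : Odd q) :
    2 ≤ (univ.filter (fun a : GaloisField p q =>
        Algebra.norm (ZMod p) a = 1 ∧ Algebra.norm (ZMod p) (2 - a) = 1)).card := by
  classical
  have hpp : p.Prime := Fact.out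
  have hp3 : 3 ≤ p := by
    have := hpp.two_le
    omega
  obtain ⟨k, hk⟩ := hqodd
  have hk2 : 2 ≤ k := by omega
  have hq0 : q ≠ 0 := by omega
  set E := (univ.filter (fun a : GaloisField p q =>
        Algebra.norm (ZMod p) a = 1 ∧ Algebra.norm (ZMod p) (2 - a) = 1)) with hE
  set B : ℝ := (p : ℝ) ^ (k + 1) with hBdef
  have hpR : (3 : ℝ) ≤ p := by exact_mod_cast hp3
  have hB0 : 1 ≤ B := one_le_pow₀ (by linarith)
  have hB : (p : ℝ) ^ q ≤ B ^ 2 := by
    rw [hBdef, ← pow_mul]
    exact pow_le_pow_right₀ (by linarith) (by omega)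
  have h2 : (2 : GaloisField p q) ≠ 0 := by
    intro h
    have h' : ((2 : ℕ) : GaloisField p q) = 0 := by exact_mod_cast h
    rw [CharP.cast_eq_zero_iff (GaloisField p q) p] at h'
    have := Nat.le_of_dvd (by norm_num) h'
    omega
  have hid := card_identity (q := q) hp
  rw [← hE] at hid
  set f : DirichletCharacter ℂ p × DirichletCharacter ℂ p → ℂ := fun x =>
    normChar p q x.1 2 * normChar p q x.2 2 * jacobiSum (normChar p q x.1) (normChar p q x.2) with hf
  have hsum : ∑ χ : DirichletCharacter ℂ p, ∑ ψ : DirichletCharacter ℂ p,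
          normChar p q χ 2 * normChar p q ψ 2 * jacobiSum (normChar p q χ) (normChar p q ψ)
      = ∑ x ∈ (univ : Finset (DirichletCharacter ℂ p × DirichletCharacter ℂ p)), f x := by
    rw [← Finset.univ_product_univ, Finset.sum_product]
  rw [hsum, ← Finset.add_sum_erase _ f (Finset.mem_univ ((1 : DirichletCharacter ℂ p), (1 : DirichletCharacter ℂ p)))] at hid
  have hcardF : Fintype.card (GaloisField p q) = p ^ q := by
    rw [← Nat.card_eq_fintype_card, GaloisField.card p q hq0]
  have hf11 : f (1, 1) = (p : ℂ) ^ q - 2 := by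
    simp only [hf]
    rw [normChar_one, MulChar.one_apply (isUnit_iff_ne_zero.mpr h2), jacobiSum_one_one, hcardF]
    push_cast
    ring
  have hcardD : Fintype.card (DirichletCharacter ℂ p) = p - 1 := by
    rw [← Nat.card_eq_fintype_card, DirichletCharacter.card_eq_totient_of_hasEnoughRootsOfUnity ℂ p,
      Nat.totient_prime hpp]
  have hbound : ‖∑ x ∈ (univ : Finset (DirichletCharacter ℂ p × DirichletCharacter ℂ p)).erase (1, 1), f x‖
      ≤ (((p : ℝ) - 1) ^ 2 - 1) * B := by
    have h1 : ‖∑ x ∈ (univ : Finset (DirichletCharacter ℂ p × DirichletCharacter ℂ p)).erase (1, 1), f x‖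
        ≤ ∑ _x ∈ (univ : Finset (DirichletCharacter ℂ p × DirichletCharacter ℂ p)).erase (1, 1), B := by
      apply norm_sum_le_of_le
      intro x hx
      have hx' : ¬ (x.1 = 1 ∧ x.2 = 1) := by
        rintro ⟨h1, h2⟩
        exact (Finset.mem_erase.mp hx).1 (Prod.ext h1 h2)
      simp only [hf]
      rw [norm_mul, norm_mul]
      have ha := normChar_norm_le_one (q := q) x.1 2
      have hb := normChar_norm_le_one (q := q) x.2 2
      have hc := jacobi_norm_le hq0 hB0 hB x.1 x.2 hx'
      have hab : ‖normChar p q x.1 2‖ * ‖normChar p q x.2 2‖ ≤ 1 := by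
        have := mul_le_mul ha hb (norm_nonneg _) zero_le_one
        simpa using this
      calc ‖normChar p q x.1 2‖ * ‖normChar p q x.2 2‖ * ‖jacobiSum (normChar p q x.1) (normChar p q x.2)‖
          ≤ 1 * B := mul_le_mul hab hc (norm_nonneg _) zero_le_one
        _ = B := one_mul B
    refine h1.trans (le_of_eq ?_)
    rw [Finset.sum_const, Finset.card_erase_of_mem (Finset.mem_univ _), Finset.card_univ,
      Fintype.card_prod, hcardD, nsmul_eq_mul]
    congr 1
    have : 1 ≤ (p - 1) * (p - 1) := by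
      have : 2 ≤ p - 1 := by omega
      nlinarith
    rw [Nat.cast_sub this, Nat.cast_mul, Nat.cast_sub hpp.one_le]
    push_cast
    ring
  rw [hf11] at hid
  set R := ∑ x ∈ (univ : Finset (DirichletCharacter ℂ p × DirichletCharacter ℂ p)).erase (1, 1), f x with hR
  have hRe : R = (((((p : ℝ) - 1) ^ 2 * (E.card : ℝ) - ((p : ℝ) ^ q - 2)) : ℝ) : ℂ) := by
    push_cast
    rw [hid]
    ring
  rw [hRe, Complex.norm_real, Real.norm_eq_abs] at hbound
  have hlow := (abs_le.mp hbound).1
  -- now the numeric inequality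
  have hx : (p : ℝ) ^ 2 ≤ (p : ℝ) ^ k := pow_le_pow_right₀ (by linarith) hk2
  have hpq : (p : ℝ) ^ q = (p : ℝ) * ((p : ℝ) ^ k) ^ 2 := by
    rw [hk, ← pow_mul, mul_comm k 2, pow_succ]; ring
  have hBx : B = (p : ℝ) * (p : ℝ) ^ k := by
    rw [hBdef, pow_succ]; ring
  by_contra hcon
  have hE1 : (E.card : ℝ) ≤ 1 := by
    have : E.card ≤ 1 := by omega
    exact_mod_cast this
  rw [hpq, hBx] at hlow
  set x := (p : ℝ) ^ k with hxdef
  have hxp : 0 ≤ x - (p : ℝ) ^ 2 := by linarith
  have hp0 : (0 : ℝ) ≤ p := by linarith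
  have hx0 : 0 ≤ x := le_trans (by positivity) hx
  have h3 : ((p : ℝ) - 1) ^ 2 * (E.card : ℝ) ≤ ((p : ℝ) - 1) ^ 2 :=
    mul_le_of_le_one_right (by positivity) hE1
  nlinarith [mul_nonneg (mul_nonneg hp0 hx0) hxp, mul_nonneg hp0 hp0, mul_nonneg (mul_nonneg hp0 hp0) hxp,
    mul_nonneg (mul_nonneg hp0 hp0) (mul_nonneg hp0 hp0)]

end


section cubic
open Polynomial

/-- Norm of `gen + k` for a power basis, via the characteristic polynomial. -/
theorem norm_gen_add_algebraMap {R S : Type*} [CommRing R] [CommRing S] [Algebra R S]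
    (pb : PowerBasis R S) (k : R) :
    Algebra.norm R (pb.gen + algebraMap R S k) = (-1) ^ pb.dim * (minpoly R pb.gen).eval (-k) := by
  classical
  rw [Algebra.norm_eq_matrix_det pb.basis, ← charpoly_leftMulMatrix pb, Matrix.eval_charpoly,
    map_add, AlgHom.commutes]
  have h : (Matrix.scalar (Fin pb.dim)) (-k) - (Algebra.leftMulMatrix pb.basis) pb.gen
      = -((Algebra.leftMulMatrix pb.basis) pb.gen + (algebraMap R (Matrix (Fin pb.dim) (Fin pb.dim) R)) k) := by
    rw [Matrix.algebraMap_eq_diagonal]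
    ext i j
    by_cases hij : i = j
    · subst hij; simp; ring
    · simp [Matrix.diagonal_apply_ne _ hij]
  rw [h, Matrix.det_neg, Fintype.card_fin]
  rw [← mul_assoc, ← pow_add, ← two_mul, pow_mul]
  simp

/-- For a prime `p`, there is `b` in `GF(p^3)` with `N(b-1) = N(b) = N(b+1) ≠ 0`. -/
theorem exists_norm_three (p : ℕ) [Fact p.Prime] :
    ∃ b : GaloisField p 3, Algebra.norm (ZMod p) b ≠ 0 ∧
      Algebra.norm (ZMod p) (b + 1) = Algebra.norm (ZMod p) b ∧
      Algebra.norm (ZMod p) (b - 1) = Algebra.norm (ZMod p) b := by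
  classical
  -- choose c such that X^3 - X + c has no root
  have hns : ¬ Function.Surjective (fun x : ZMod p => x ^ 3 - x) := by
    intro hs
    have hi : Function.Injective (fun x : ZMod p => x ^ 3 - x) := Finite.injective_iff_surjective.mpr hs
    have : (0 : ZMod p) = 1 := hi (by simp)
    exact zero_ne_one this
  obtain ⟨d, hd⟩ : ∃ d : ZMod p, ∀ x : ZMod p, x ^ 3 - x ≠ d := by
    by_contra hcon
    push Not at hcon
    exact hns (fun d => hcon d)
  set g : (ZMod p)[X] := X ^ 3 - X - C d with hg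
  have hdeg : g.natDegree = 3 := by
    rw [hg]; compute_degree!
  have hmon : g.Monic := by
    rw [hg]; monicity!
  have hg0 : g ≠ 0 := hmon.ne_zero
  have hroot : ∀ x : ZMod p, ¬ g.IsRoot x := by
    intro x hx
    have : x ^ 3 - x - d = 0 := by simpa [hg, IsRoot] using hx
    exact hd x (sub_eq_zero.mp this)
  have hirr : Irreducible g := by
    apply Polynomial.irreducible_of_degree_le_three_of_not_isRoot
    · rw [hdeg]; simp
    · exact hroot
  have : Fact (Irreducible g) := ⟨hirr⟩
  let pb := AdjoinRoot.powerBasis hg0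
  have hdim : pb.dim = 3 := hdeg
  have hgen : pb.gen = AdjoinRoot.root g := rfl
  have hmin : minpoly (ZMod p) pb.gen = g := AdjoinRoot.minpoly_powerBasis_gen_of_monic hmon hg0
  have : Module.Finite (ZMod p) (AdjoinRoot g) := pb.finite
  have : Finite (AdjoinRoot g) := Module.finite_of_finite (ZMod p)
  have hcard : Nat.card (AdjoinRoot g) = p ^ 3 := by
    rw [Module.natCard_eq_pow_finrank (K := ZMod p), pb.finrank, hdim, Nat.card_zmod]
  let e : AdjoinRoot g ≃ₐ[ZMod p] GaloisField p 3 := GaloisField.algEquivGaloisField p 3 hcard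
  have hN : ∀ k : ZMod p, Algebra.norm (ZMod p) (e (AdjoinRoot.root g) + algebraMap _ _ k) = k ^ 3 - k + d := by
    intro k
    have h1 := norm_gen_add_algebraMap pb k
    rw [hmin, hdim, hgen] at h1
    have h2 : Algebra.norm (ZMod p) (e (AdjoinRoot.root g + algebraMap _ _ k))
        = Algebra.norm (ZMod p) (AdjoinRoot.root g + algebraMap _ _ k) :=
      Algebra.norm_eq_of_algEquiv e _
    rw [map_add, AlgEquiv.commutes] at h2
    rw [h2, h1, hg]
    simp
    ring
  refine ⟨e (AdjoinRoot.root g), ?_, ?_, ?_⟩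
  · have := hN 0
    simp only [map_zero, add_zero] at this
    rw [this]
    intro h0
    exact hd 0 (by simp; simpa using h0.symm)
  · have h0 := hN 0
    have h1 := hN 1
    simp only [map_zero, add_zero, map_one] at h0 h1
    rw [h0, h1]; ring
  · have h0 := hN 0
    have h1 := hN (-1)
    simp only [map_zero, add_zero, map_neg, map_one] at h0 h1
    rw [h0, sub_eq_add_neg, h1]; ring


end cubic

end Cfsg.Agent.H97
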