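import Mathlib

set_option autoImplicit false

namespace Cfsg.Agent.H97.Witt

open Equiv

section abstract

variable {Γ : Type*} [Group Γ]

/-- double-coset step: from `L = P ∪ P s' P`, `s` normalising `P` and the braid relation. -/
theorem step (P L H : Subgroup Γ) (s' s : Γ)
    (hPL : P ≤ L) (hHP : H ≤ P) (hs'L : s' ∈ L)
    (hdec : ∀ l ∈ L, l ∈ P ∨ ∃ a ∈ P, ∃ b ∈ P, l = a * s' * b)
    (hnorm : ∀ c ∈ P, s * c * s⁻¹ ∈ P)
    (hs2 : s ^ 2 ∈ H) (hbr : (s' * s) ^ 3 ∈ H) :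
    ∀ c ∈ L, s * c * s ∈ L ∨ ∃ a ∈ L, ∃ b ∈ L, s * c * s = a * s * b := by
  intro c hc
  have hs2P : s ^ 2 ∈ P := hHP hs2
  rcases hdec c hc with hcP | ⟨a, ha, b, hb, rfl⟩
  · left
    have e : s * c * s = s * c * s⁻¹ * s ^ 2 := by group
    rw [e]
    exact hPL (P.mul_mem (hnorm c hcP) hs2P)
  · right
    refine ⟨s * a * s⁻¹ * s'⁻¹ * (s' * s) ^ 3 * (s ^ 2)⁻¹, ?_,
      s'⁻¹ * ((s ^ 2)⁻¹ * (s * b * s⁻¹) * s ^ 2), ?_, ?_⟩
    · refine L.mul_mem (L.mul_mem (L.mul_mem (hPL (hnorm a ha)) (L.inv_mem hs'L))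
        (hPL (hHP hbr))) (L.inv_mem (hPL hs2P))
    · refine L.mul_mem (L.inv_mem hs'L) (hPL ?_)
      exact P.mul_mem (P.mul_mem (P.inv_mem hs2P) (hnorm b hb)) hs2P
    · have e3 : (s' * s) ^ 3 = s' * s * (s' * s) * (s' * s) := by
        rw [pow_succ, pow_succ, pow_one]
      rw [e3]
      group

/-- `L ∪ L s L` is a subgroup once `s L s ⊆ L ∪ L s L` and `s² ∈ L`. -/
theorem closed (L : Subgroup Γ) (s : Γ) (hs2 : s ^ 2 ∈ L)
    (hkey : ∀ c ∈ L, s * c * s ∈ L ∨ ∃ a ∈ L, ∃ b ∈ L, s * c * s = a * s * b) :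
    ∀ x ∈ Subgroup.closure ((L : Set Γ) ∪ {s}), x ∈ L ∨ ∃ a ∈ L, ∃ b ∈ L, x = a * s * b := by
  intro x hx
  induction hx using Subgroup.closure_induction with
  | mem x hx =>
    rcases hx with hx | hx
    · exact Or.inl hx
    · rw [Set.mem_singleton_iff] at hx
      exact Or.inr ⟨1, L.one_mem, 1, L.one_mem, by rw [hx]; group⟩
  | one => exact Or.inl L.one_mem
  | mul x y _ _ hx hy =>
    rcases hx with hx | ⟨a, ha, b, hb, rfl⟩
    · rcases hy with hy | ⟨a', ha', b', hb', rfl⟩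
      · exact Or.inl (L.mul_mem hx hy)
      · exact Or.inr ⟨x * a', L.mul_mem hx ha', b', hb', by group⟩
    · rcases hy with hy | ⟨a', ha', b', hb', rfl⟩
      · exact Or.inr ⟨a, ha, b * y, L.mul_mem hb hy, by group⟩
      · rcases hkey (b * a') (L.mul_mem hb ha') with h | ⟨a'', ha'', b'', hb'', h⟩
        · left
          have e : a * s * b * (a' * s * b') = a * (s * (b * a') * s) * b' := by group
          rw [e]
          exact L.mul_mem (L.mul_mem ha h) hb'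
        · right
          refine ⟨a * a'', L.mul_mem ha ha'', b'' * b', L.mul_mem hb'' hb', ?_⟩
          have e : a * s * b * (a' * s * b') = a * (s * (b * a') * s) * b' := by group
          rw [e, h]; group
  | inv x _ hx =>
    rcases hx with hx | ⟨a, ha, b, hb, rfl⟩
    · exact Or.inl (L.inv_mem hx)
    · exact Or.inr ⟨b⁻¹, L.inv_mem hb, (s ^ 2)⁻¹ * a⁻¹, L.mul_mem (L.inv_mem hs2) (L.inv_mem ha),
        by group⟩

end abstract


/-- the hypotheses of Witt's lemma -/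
structure Data (α : Type*) where
  t : ℕ
  q : ℕ → α
  G : Subgroup (Perm α)
  s : ℕ → Perm α
  H : Subgroup (Perm α)
  ht : 2 ≤ t
  hq : ∀ i j : ℕ, 1 ≤ i → i ≤ t → 1 ≤ j → j ≤ t → q i = q j → i = j
  hfix : ∀ g ∈ G, ∀ i : ℕ, 3 ≤ i → i ≤ t → g (q i) = q i
  h2 : ∀ a b c d : α, (∀ i, 3 ≤ i → i ≤ t → a ≠ q i ∧ b ≠ q i ∧ c ≠ q i ∧ d ≠ q i) →
    a ≠ b → c ≠ d → ∃ g ∈ G, g a = c ∧ g b = d
  hs1 : s 1 ∈ G
  hs1q : s 1 (q 1) = q 2 ∧ s 1 (q 2) = q 1
  hsq : ∀ i : ℕ, 2 ≤ i → i + 1 ≤ t → s i (q i) = q (i + 1) ∧ s i (q (i + 1)) = q i ∧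
    ∀ j : ℕ, 1 ≤ j → j ≤ t → j ≠ i → j ≠ i + 1 → s i (q j) = q j
  hH : ∀ g, g ∈ H ↔ g ∈ G ∧ g (q 1) = q 1 ∧ g (q 2) = q 2
  hsq2 : ∀ i : ℕ, 1 ≤ i → i + 1 ≤ t → s i ^ 2 ∈ H
  hbraid : ∀ i : ℕ, 1 ≤ i → i + 2 ≤ t → (s i * s (i + 1)) ^ 3 ∈ H
  hcomm : ∀ i j : ℕ, 1 ≤ i → i + 2 ≤ j → j + 1 ≤ t → (s i * s j) ^ 2 ∈ H
  hnorm : ∀ i : ℕ, 2 ≤ i → i + 1 ≤ t → ∀ g ∈ G, g (q 2) = q 2 →
    s i * g * (s i)⁻¹ ∈ G ∧ (s i * g * (s i)⁻¹) (q 2) = q 2

namespace Data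

variable {α : Type*} (D : Data α)

/-- the stabiliser of `q 2` in `G`. -/
def K : Subgroup (Perm α) := D.G ⊓ MulAction.stabilizer (Perm α) (D.q 2)

theorem mem_K (g : Perm α) : g ∈ D.K ↔ g ∈ D.G ∧ g (D.q 2) = D.q 2 := by
  unfold K; rw [Subgroup.mem_inf, MulAction.mem_stabilizer_iff, Perm.smul_def]

/-- the group generated by `G` and `s 2, …, s (k - 1)`. -/
def L (k : ℕ) : Subgroup (Perm α) :=
  Subgroup.closure ((D.G : Set (Perm α)) ∪ {x | ∃ i : ℕ, 2 ≤ i ∧ i + 1 ≤ k ∧ x = D.s i})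

theorem G_le_L (k : ℕ) : D.G ≤ D.L k := fun _ hg => Subgroup.subset_closure (Or.inl hg)

theorem s_mem_L {i k : ℕ} (h2 : 2 ≤ i) (hk : i + 1 ≤ k) : D.s i ∈ D.L k :=
  Subgroup.subset_closure (Or.inr ⟨i, h2, hk, rfl⟩)

theorem L_mono {k k' : ℕ} (h : k ≤ k') : D.L k ≤ D.L k' := by
  apply Subgroup.closure_mono
  rintro x (hx | ⟨i, h2, hk, hx⟩)
  · exact Or.inl hx
  · exact Or.inr ⟨i, h2, le_trans hk h, hx⟩

theorem L_two : D.L 2 = D.G := by
  apply le_antisymm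
  · rw [L, Subgroup.closure_le]
    rintro x (hx | ⟨i, h2, hk, hx⟩)
    · exact hx
    · omega
  · exact D.G_le_L 2

theorem H_le_K : D.H ≤ D.K := fun g hg =>
  (D.mem_K g).mpr ⟨((D.hH g).mp hg).1, ((D.hH g).mp hg).2.2⟩

theorem K_le_G : D.K ≤ D.G := fun g hg => ((D.mem_K g).mp hg).1

theorem H_le_G : D.H ≤ D.G := fun g hg => ((D.hH g).mp hg).1

theorem L_fix (k : ℕ) (hk : 2 ≤ k) :
    ∀ l ∈ D.L k, ∀ j, k < j → j ≤ D.t → l (D.q j) = D.q j := by
  intro l hl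
  induction hl using Subgroup.closure_induction with
  | mem x hx =>
    intro j hj hjt
    rcases hx with hx | ⟨i, h2, hik, rfl⟩
    · exact D.hfix x hx j (by omega) hjt
    · exact (D.hsq i h2 (by omega)).2.2 j (by omega) hjt (by omega) (by omega)
  | one => intro j _ _; rfl
  | mul x y _ _ hx hy => intro j hj hjt; rw [Perm.mul_apply, hy j hj hjt, hx j hj hjt]
  | inv x _ hx => intro j hj hjt; rw [Perm.inv_eq_iff_eq]; exact (hx j hj hjt).symm

theorem base_decomp : ∀ g ∈ D.G, g ∈ D.K ∨ ∃ a ∈ D.K, ∃ b ∈ D.K, g = a * D.s 1 * b := by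
  intro g hg
  by_cases hgq : g (D.q 2) = D.q 2
  · exact Or.inl ((D.mem_K g).mpr ⟨hg, hgq⟩)
  · right
    have ht := D.ht
    have h12 : D.q 2 ≠ D.q 1 := fun h => by
      have := D.hq 2 1 (by omega) (by omega) (by omega) (by omega) h; omega
    obtain ⟨k₀, hk₀, hk1, hk2⟩ := D.h2 (D.q 2) (g (D.q 2)) (D.q 2) (D.q 1) (by
      intro i hi hit
      have e2 : D.q 2 ≠ D.q i := fun h => by
        have := D.hq 2 i (by omega) (by omega) (by omega) hit h; omega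
      have e1 : D.q 1 ≠ D.q i := fun h => by
        have := D.hq 1 i (by omega) (by omega) (by omega) hit h; omega
      refine ⟨e2, ?_, e2, e1⟩
      intro h
      have h3 := D.hfix g hg i hi hit
      exact e2 (g.injective (h.trans h3.symm))) (Ne.symm hgq) h12
    have hm : D.s 1 * k₀ * g ∈ D.K := by
      rw [mem_K]
      refine ⟨D.G.mul_mem (D.G.mul_mem D.hs1 hk₀) hg, ?_⟩
      rw [Perm.mul_apply, Perm.mul_apply, hk2, D.hs1q.1]
    have hs2 : D.s 1 ^ 2 ∈ D.K := D.H_le_K (D.hsq2 1 le_rfl (by omega))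
    exact ⟨k₀⁻¹, D.K.inv_mem ((D.mem_K k₀).mpr ⟨hk₀, hk1⟩), (D.s 1 ^ 2)⁻¹ * (D.s 1 * k₀ * g),
      D.K.mul_mem (D.K.inv_mem hs2) hm, by group⟩

theorem norm_K (k : ℕ) (hk : 2 ≤ k) (hkt : k + 1 ≤ D.t) :
    ∀ c ∈ D.K, D.s k * c * (D.s k)⁻¹ ∈ D.K := by
  intro c hc
  obtain ⟨hcG, hcq⟩ := (D.mem_K c).mp hc
  exact (D.mem_K _).mpr (D.hnorm k hk hkt c hcG hcq)

theorem conj_of_comm {Γ : Type*} [Group Γ] (a s : Γ) :
    s * a * s⁻¹ = a⁻¹ * (a * s) ^ 2 * (s ^ 2)⁻¹ := by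
  rw [pow_two (a * s)]; group

theorem norm_G (k : ℕ) (hk : 3 ≤ k) (hkt : k + 1 ≤ D.t) :
    ∀ g ∈ D.G, D.s k * g * (D.s k)⁻¹ ∈ D.G := by
  intro g hg
  have hs2 : D.s k ^ 2 ∈ D.G := D.H_le_G (D.hsq2 k (by omega) hkt)
  rcases D.base_decomp g hg with h | ⟨a, ha, b, hb, rfl⟩
  · exact D.K_le_G (D.norm_K k (by omega) hkt g h)
  · have e : D.s k * (a * D.s 1 * b) * (D.s k)⁻¹
        = (D.s k * a * (D.s k)⁻¹) * (D.s k * D.s 1 * (D.s k)⁻¹) * (D.s k * b * (D.s k)⁻¹) := by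
      group
    rw [e, conj_of_comm (D.s 1) (D.s k)]
    refine D.G.mul_mem (D.G.mul_mem (D.K_le_G (D.norm_K k (by omega) hkt a ha)) ?_)
      (D.K_le_G (D.norm_K k (by omega) hkt b hb))
    exact D.G.mul_mem (D.G.mul_mem (D.G.inv_mem D.hs1)
      (D.H_le_G (D.hcomm 1 k le_rfl (by omega) hkt))) (D.G.inv_mem hs2)

theorem norm_L (m k : ℕ) (hm : 2 ≤ m) (hmk : m + 1 ≤ k) (hkt : k + 1 ≤ D.t) :
    ∀ c ∈ D.L m, D.s k * c * (D.s k)⁻¹ ∈ D.L m := by
  intro c hc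
  have hs2 : D.s k ^ 2 ∈ D.L m := D.G_le_L m (D.H_le_G (D.hsq2 k (by omega) hkt))
  induction hc using Subgroup.closure_induction with
  | mem x hx =>
    rcases hx with hx | ⟨i, h2, hik, rfl⟩
    · exact D.G_le_L m (D.norm_G k (by omega) hkt x hx)
    · rw [conj_of_comm (D.s i) (D.s k)]
      exact (D.L m).mul_mem ((D.L m).mul_mem ((D.L m).inv_mem (D.s_mem_L h2 hik))
        (D.G_le_L m (D.H_le_G (D.hcomm i k (by omega) (by omega) hkt)))) ((D.L m).inv_mem hs2)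
  | one => simp
  | mul x y _ _ hx hy =>
    have e : D.s k * (x * y) * (D.s k)⁻¹ = (D.s k * x * (D.s k)⁻¹) * (D.s k * y * (D.s k)⁻¹) := by
      group
    rw [e]; exact (D.L m).mul_mem hx hy
  | inv x _ hx =>
    have e : D.s k * x⁻¹ * (D.s k)⁻¹ = (D.s k * x * (D.s k)⁻¹)⁻¹ := by group
    rw [e]; exact (D.L m).inv_mem hx

/-- the double coset decomposition `L (k+1) = L k ∪ L k * s k * L k`. -/
def Dec (k : ℕ) : Prop :=
  ∀ l ∈ D.L (k + 1), l ∈ D.L k ∨ ∃ a ∈ D.L k, ∃ b ∈ D.L k, l = a * D.s k * b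

theorem dec_of_key (k : ℕ) (hk : 2 ≤ k) (hkt : k + 1 ≤ D.t)
    (hkey : ∀ c ∈ D.L k, D.s k * c * D.s k ∈ D.L k ∨
      ∃ a ∈ D.L k, ∃ b ∈ D.L k, D.s k * c * D.s k = a * D.s k * b) : D.Dec k := by
  intro l hl
  have hle : D.L (k + 1) ≤ Subgroup.closure ((D.L k : Set (Perm α)) ∪ {D.s k}) := by
    rw [L, Subgroup.closure_le]
    rintro x (hx | ⟨i, h2, hik, rfl⟩)
    · exact Subgroup.subset_closure (Or.inl (D.G_le_L k hx))
    · by_cases hi : i + 1 ≤ k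
      · exact Subgroup.subset_closure (Or.inl (D.s_mem_L h2 hi))
      · have : i = k := by omega
        subst this; exact Subgroup.subset_closure (Or.inr rfl)
  exact closed (D.L k) (D.s k) (D.G_le_L k (D.H_le_G (D.hsq2 k (by omega) hkt))) hkey l (hle hl)

theorem decomp : ∀ k, 2 ≤ k → k + 1 ≤ D.t → D.Dec k := by
  intro k hk
  induction k, hk using Nat.le_induction with
  | base =>
    intro hkt
    refine D.dec_of_key 2 le_rfl hkt
      (step D.K (D.L 2) D.H (D.s 1) (D.s 2) ?_ D.H_le_K (D.G_le_L 2 D.hs1) ?_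
        (D.norm_K 2 le_rfl hkt) (D.hsq2 2 (by omega) hkt) (D.hbraid 1 le_rfl hkt))
    · exact le_trans D.K_le_G (D.G_le_L 2)
    · intro l hl
      rw [L_two] at hl
      exact D.base_decomp l hl
  | succ k hk ih =>
    intro hkt
    exact D.dec_of_key (k + 1) (by omega) hkt
      (step (D.L k) (D.L (k + 1)) D.H (D.s k) (D.s (k + 1)) (D.L_mono (by omega))
        (le_trans D.H_le_G (D.G_le_L k)) (D.s_mem_L hk le_rfl) (ih (by omega))
        (D.norm_L k (k + 1) hk le_rfl hkt) (D.hsq2 (k + 1) (by omega) hkt)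
        (D.hbraid k (by omega) hkt))

theorem stab_le : ∀ k, 2 ≤ k → k ≤ D.t →
    ∀ l ∈ D.L k, (∀ j, 1 ≤ j → j ≤ k → l (D.q j) = D.q j) → l ∈ D.H := by
  intro k hk
  induction k, hk using Nat.le_induction with
  | base =>
    intro _ l hl hfix
    rw [L_two] at hl
    exact (D.hH l).mpr ⟨hl, hfix 1 le_rfl (by omega), hfix 2 (by omega) le_rfl⟩
  | succ k hk ih =>
    intro hkt l hl hfix
    rcases D.decomp k hk hkt l hl with h | ⟨a, ha, b, hb, rfl⟩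
    · exact ih (by omega) l h (fun j h1 hj => hfix j h1 (by omega))
    · exfalso
      have h1 := hfix (k + 1) (by omega) le_rfl
      rw [Perm.mul_apply, Perm.mul_apply, D.L_fix k hk b hb (k + 1) (by omega) hkt,
        (D.hsq k hk hkt).2.1] at h1
      have h2 := D.L_fix k hk a ha (k + 1) (by omega) hkt
      have h3 : D.q k = D.q (k + 1) := a.injective (h1.trans h2.symm)
      have := D.hq k (k + 1) (by omega) (by omega) (by omega) hkt h3
      omega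

theorem to_q1 : ∀ k, 2 ≤ k → k ≤ D.t → ∀ a : α, (∀ j, k < j → j ≤ D.t → a ≠ D.q j) →
    ∃ l ∈ D.L k, l a = D.q 1 := by
  intro k hk
  induction k, hk using Nat.le_induction with
  | base =>
    intro _ a ha
    by_cases h : a = D.q 1
    · exact ⟨1, (D.L 2).one_mem, h⟩
    · obtain ⟨g, hg, h1, -⟩ := D.h2 a (D.q 1) (D.q 1) a (by
        intro i hi hit
        have e1 : D.q 1 ≠ D.q i := fun h => by
          have := D.hq 1 i (by omega) (by omega) (by omega) hit h; omega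
        exact ⟨ha i (by omega) hit, e1, e1, ha i (by omega) hit⟩) h (Ne.symm h)
      exact ⟨g, D.G_le_L 2 hg, h1⟩
  | succ k hk ih =>
    intro hkt a ha
    by_cases h : a = D.q (k + 1)
    · obtain ⟨l', hl', e⟩ := ih (by omega) (D.q k) (by
        intro j hj hjt h'
        have := D.hq k j (by omega) (by omega) (by omega) hjt h'
        omega)
      refine ⟨l' * D.s k, (D.L (k + 1)).mul_mem (D.L_mono (by omega) hl') (D.s_mem_L hk le_rfl), ?_⟩
      rw [Perm.mul_apply, h, (D.hsq k hk hkt).2.1, e]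
    · obtain ⟨l, hl, e⟩ := ih (by omega) a (by
        intro j hj hjt
        by_cases hj' : j = k + 1
        · subst hj'; exact h
        · exact ha j (by omega) hjt)
      exact ⟨l, D.L_mono (by omega) hl, e⟩

theorem trans1 (k : ℕ) (hk : 2 ≤ k) (hkt : k ≤ D.t) (a b : α)
    (ha : ∀ j, k < j → j ≤ D.t → a ≠ D.q j) (hb : ∀ j, k < j → j ≤ D.t → b ≠ D.q j) :
    ∃ l ∈ D.L k, l a = b := by
  obtain ⟨l₁, h1, e1⟩ := D.to_q1 k hk hkt a ha
  obtain ⟨l₂, h2, e2⟩ := D.to_q1 k hk hkt b hb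
  exact ⟨l₂⁻¹ * l₁, (D.L k).mul_mem ((D.L k).inv_mem h2) h1, by
    rw [Perm.mul_apply, e1, Perm.inv_eq_iff_eq, e2]⟩

theorem multi : ∀ k, 2 ≤ k → k ≤ D.t → ∀ x y : Fin k → α, Function.Injective x →
    Function.Injective y → (∀ i j, k < j → j ≤ D.t → x i ≠ D.q j) →
    (∀ i j, k < j → j ≤ D.t → y i ≠ D.q j) → ∃ l ∈ D.L k, ∀ i, l (x i) = y i := by
  intro k hk
  induction k, hk using Nat.le_induction with
  | base =>
    intro _ x y hx hy hxq hyq
    obtain ⟨g, hg, h0, h1⟩ := D.h2 (x 0) (x 1) (y 0) (y 1) (by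
      intro i hi hit
      exact ⟨hxq 0 i (by omega) hit, hxq 1 i (by omega) hit, hyq 0 i (by omega) hit,
        hyq 1 i (by omega) hit⟩) (fun h => by simpa using hx h) (fun h => by simpa using hy h)
    exact ⟨g, D.G_le_L 2 hg, Fin.forall_fin_two.mpr ⟨h0, h1⟩⟩
  | succ k hk ih =>
    intro hkt x y hx hy hxq hyq
    have hqk : ∀ j, k + 1 < j → j ≤ D.t → D.q (k + 1) ≠ D.q j := by
      intro j hj hjt h'
      have := D.hq (k + 1) j (by omega) (by omega) (by omega) hjt h'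
      omega
    obtain ⟨l₁, hl₁, e₁⟩ := D.trans1 (k + 1) (by omega) hkt (x (Fin.last k)) (D.q (k + 1))
      (hxq (Fin.last k)) hqk
    obtain ⟨l₂, hl₂, e₂⟩ := D.trans1 (k + 1) (by omega) hkt (y (Fin.last k)) (D.q (k + 1))
      (hyq (Fin.last k)) hqk
    have aux : ∀ (z : Fin (k + 1) → α) (l' : Perm α), l' ∈ D.L (k + 1) → Function.Injective z →
        (∀ i j, k + 1 < j → j ≤ D.t → z i ≠ D.q j) → l' (z (Fin.last k)) = D.q (k + 1) →
        Function.Injective (fun i : Fin k => l' (z i.castSucc)) ∧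
        ∀ (i : Fin k) (j : ℕ), k < j → j ≤ D.t → l' (z i.castSucc) ≠ D.q j := by
      intro z l' hl' hz hzq e
      constructor
      · intro i i' h
        exact Fin.castSucc_injective k (hz (l'.injective h))
      · intro i j hj hjt h
        by_cases hj' : j = k + 1
        · subst hj'
          have h3 : i.castSucc = Fin.last k := hz (l'.injective (h.trans e.symm))
          exact absurd h3 (Fin.castSucc_lt_last i).ne
        · have h4 := D.L_fix (k + 1) (by omega) l' hl' j (by omega) hjt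
          exact hzq i.castSucc j (by omega) hjt (l'.injective (h.trans h4.symm))
    obtain ⟨hx1, hx2⟩ := aux x l₁ hl₁ hx hxq e₁
    obtain ⟨hy1, hy2⟩ := aux y l₂ hl₂ hy hyq e₂
    obtain ⟨l, hl, e⟩ := ih (by omega) _ _ hx1 hy1 hx2 hy2
    refine ⟨l₂⁻¹ * l * l₁, (D.L (k + 1)).mul_mem ((D.L (k + 1)).mul_mem
      ((D.L (k + 1)).inv_mem hl₂) (D.L_mono (by omega) hl)) hl₁, ?_⟩
    intro i
    refine Fin.lastCases ?_ (fun i' => ?_) i
    · rw [Perm.mul_apply, Perm.mul_apply, e₁, D.L_fix k hk l hl (k + 1) (by omega) hkt,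
        Perm.inv_eq_iff_eq, e₂]
    · have e' : l (l₁ (x i'.castSucc)) = l₂ (y i'.castSucc) := e i'
      rw [Perm.mul_apply, Perm.mul_apply, e', Perm.inv_eq_iff_eq]

theorem main : MulAction.IsMultiplyPretransitive ↥(D.L D.t) α D.t ∧
    D.L D.t ⊓ fixingSubgroup (Perm α) {x | ∃ i : ℕ, 1 ≤ i ∧ i ≤ D.t ∧ x = D.q i} = D.H := by
  constructor
  · rw [MulAction.isMultiplyPretransitive_iff]
    intro x y
    obtain ⟨l, hl, h⟩ := D.multi D.t D.ht le_rfl x y x.injective y.injective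
      (fun i j h1 h2 => by omega) (fun i j h1 h2 => by omega)
    refine ⟨⟨l, hl⟩, ?_⟩
    ext i
    exact h i
  · ext g
    rw [Subgroup.mem_inf, mem_fixingSubgroup_iff]
    constructor
    · rintro ⟨hg, hfix⟩
      exact D.stab_le D.t D.ht le_rfl g hg (fun j h1 hj => hfix (D.q j) ⟨j, h1, hj, rfl⟩)
    · intro hg
      have h3 := (D.hH g).mp hg
      refine ⟨D.G_le_L _ h3.1, ?_⟩
      rintro _ ⟨i, h1, hi, rfl⟩
      show g (D.q i) = D.q i
      rcases (by omega : i = 1 ∨ i = 2 ∨ 3 ≤ i) with rfl | rfl | h4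
      exacts [h3.2.1, h3.2.2, D.hfix g h3.1 i h4 hi]

end Data

end Cfsg.Agent.H97.Witt
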